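import Mathlib

/-! An abelian two-group whose automorphisms permute the involutions transitively is homocyclic. -/

set_option autoImplicit false
set_option linter.unusedSectionVars false

namespace Cfsg.Agent.Transfer.AllConj

universe u

theorem zmod_mulSingle_pow {ι : Type} [DecidableEq ι] (n : ι → ℕ) (i : ι) (k : ℕ) :
    ((Pi.mulSingle i (Multiplicative.ofAdd (1 : ZMod (n i))) : (i : ι) → Multiplicative (ZMod (n i))) ^ k) i =
      Multiplicative.ofAdd ((k : ZMod (n i))) := by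
  rw [Pi.pow_apply, Pi.mulSingle_eq_same, ← ofAdd_nsmul, nsmul_one]

theorem homocyclic_of_transitive {A : Type u} [CommGroup A] [Finite A] (hA : IsPGroup 2 A)
    (htr : ∀ x y : A, x ≠ 1 → x ^ 2 = 1 → y ≠ 1 → y ^ 2 = 1 → ∃ α : MulAut A, α x = y) :
    ∃ m r : ℕ, Nonempty (A ≃* (Fin r → Multiplicative (ZMod (2 ^ m)))) := by
  classical
  obtain ⟨ι, hι, n, hn1, ⟨e⟩⟩ := CommGroup.equiv_prod_multiplicative_zmod_of_finite A
  let g : ι → A := fun i => e.symm (Pi.mulSingle i (Multiplicative.ofAdd (1 : ZMod (n i))))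
  have hg : ∀ (i : ι) (k : ℕ), g i ^ k = 1 ↔ n i ∣ k := by
    intro i k
    rw [← map_eq_one_iff e e.injective, map_pow, e.apply_symm_apply]
    constructor
    · intro h
      have h1 := congrFun h i
      rw [zmod_mulSingle_pow, Pi.one_apply] at h1
      exact (ZMod.natCast_eq_zero_iff _ _).mp (congrArg Multiplicative.toAdd h1)
    · intro h
      ext j
      by_cases hj : j = i
      · subst hj
        rw [zmod_mulSingle_pow, Pi.one_apply, (ZMod.natCast_eq_zero_iff _ _).mpr h, ofAdd_zero]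
      · rw [Pi.pow_apply, Pi.mulSingle_eq_of_ne hj, one_pow, Pi.one_apply]
  have hpow : ∀ i, ∃ a, n i = 2 ^ (a + 1) := by
    intro i
    obtain ⟨k, hk⟩ := hA (g i)
    obtain ⟨a, -, ha⟩ := (Nat.dvd_prime_pow Nat.prime_two).mp ((hg i _).mp hk)
    rcases a with _ | a
    · have := hn1 i; rw [ha] at this; simp at this
    · exact ⟨a, ha⟩
  choose a ha using hpow
  have hinv : ∀ i, g i ^ 2 ^ a i ≠ 1 ∧ (g i ^ 2 ^ a i) ^ 2 = 1 := fun i => by
    refine ⟨fun h => ?_, by rw [← pow_mul, ← pow_succ, ← ha]; exact (hg i _).mpr dvd_rfl⟩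
    have h1 := (hg i _).mp h
    rw [ha, Nat.pow_dvd_pow_iff_le_right (by omega)] at h1
    omega
  have hle : ∀ i j, a j ≤ a i := by
    intro i j
    by_contra hlt
    push Not at hlt
    obtain ⟨α, hα⟩ := htr _ _ (hinv j).1 (hinv j).2 (hinv i).1 (hinv i).2
    rw [map_pow] at hα
    apply (hinv i).1
    rw [← map_eq_one_iff e e.injective, map_pow, e.apply_symm_apply]
    ext l
    by_cases hl : l = i
    · subst hl
      rw [Pi.one_apply]
      have h1 := congrArg (fun z => e z l) hα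
      simp only [map_pow, g, e.apply_symm_apply] at h1
      rw [← h1, Pi.pow_apply]
      obtain ⟨d, hd⟩ : 2 ^ (a l + 1) ∣ 2 ^ a j := pow_dvd_pow 2 (by omega)
      rw [hd, pow_mul, ← ha]
      have hz : ∀ z : Multiplicative (ZMod (n l)), z ^ n l = 1 := fun z =>
        Multiplicative.toAdd.injective (by rw [toAdd_pow, toAdd_one, nsmul_eq_mul, ZMod.natCast_self, zero_mul])
      rw [hz, one_pow]
    · rw [Pi.pow_apply, Pi.mulSingle_eq_of_ne hl, one_pow, Pi.one_apply]
  obtain ⟨m, hm⟩ : ∃ m, ∀ i, n i = 2 ^ m := by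
    rcases isEmpty_or_nonempty ι with h | ⟨⟨i₀⟩⟩
    · exact ⟨0, fun i => isEmptyElim i⟩
    · exact ⟨a i₀ + 1, fun i => by rw [ha, le_antisymm (hle i₀ i) (hle i i₀)]⟩
  obtain rfl : n = fun _ => 2 ^ m := funext hm
  exact ⟨m, Fintype.card ι, ⟨e.trans (MulEquiv.arrowCongr (Fintype.equivFin ι) (MulEquiv.refl _))⟩⟩

end Cfsg.Agent.Transfer.AllConj
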