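import Cfsg.Agent.Transfer.AllConj.Setting
import Cfsg.Agent.Transfer.AllConj.Homocyclic
import Cfsg.Agent.Core.PLength

/-! Solvable groups with one class of involutions. -/

set_option autoImplicit false
set_option linter.unusedSectionVars false
set_option linter.style.haveILetI false

namespace Cfsg.Agent.Transfer.AllConj

open Subgroup

universe u

theorem main {G : Type u} [Group G] [Finite G] (hG : Group.IsSolvable G) (heven : Even (Nat.card G))
    (S : Sylow 2 G)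
    (htwo : ∃ x y : G, x ∈ (S : Subgroup G) ∧ y ∈ (S : Subgroup G) ∧ x ≠ y ∧ x ≠ 1 ∧ x ^ 2 = 1 ∧ y ≠ 1 ∧ y ^ 2 = 1)
    (hconj : ∀ x y : G, x ≠ 1 → x ^ 2 = 1 → y ≠ 1 → y ^ 2 = 1 → IsConj x y) :
    Cfsg.PLengthLE 2 1 G ∧
      ((∃ m r : ℕ, Nonempty (↥(S : Subgroup G) ≃* (Fin r → Multiplicative (ZMod (2 ^ m))))) ∨
        (¬ IsMulCommutative (S : Subgroup G) ∧ ∃ Y : Subgroup (MulAut ↥(S : Subgroup G)), Group.IsSolvable Y ∧
          ∀ x y : ↥(S : Subgroup G), x ≠ 1 → x ^ 2 = 1 → y ≠ 1 → y ^ 2 = 1 → ∃ a ∈ Y, a x = y)) := by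
  haveI : Fact (Nat.Prime 2) := ⟨Nat.prime_two⟩
  haveI := hG
  set O := Cfsg.pPrimeCore 2 G with hO
  set π := QuotientGroup.mk' O with hπ
  have hπs : Function.Surjective π := QuotientGroup.mk'_surjective O
  have hOodd : ¬ 2 ∣ Nat.card O := Core.not_dvd_card_pPrimeCore 2 G
  have h2 : ∀ (g : G) (i : ℕ), g ^ 2 ^ i = 1 → π g = 1 → g = 1 := by
    intro g i hg hg1
    have h1 := orderOf_dvd_natCard (⟨g, (QuotientGroup.eq_one_iff g).mp hg1⟩ : O)
    rw [Subgroup.orderOf_mk] at h1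
    exact orderOf_eq_one_iff.mp (Nat.eq_one_of_dvd_coprimes
      (((Nat.Prime.coprime_iff_not_dvd Nat.prime_two).mpr hOodd).pow_left i)
      (orderOf_dvd_of_pow_eq_one hg) h1)
  obtain ⟨x₁, y₁, hxS, hyS, hxy, hx1, hx2, hy1, hy2⟩ := htwo
  have hinj : Function.Injective (π.comp (S : Subgroup G).subtype) := by
    refine (injective_iff_map_eq_one _).mpr fun s hs => Subtype.ext ?_
    obtain ⟨i, hi⟩ := S.2 s
    exact h2 s i (congrArg Subtype.val hi) hs
  have hO' : Cfsg.pPrimeCore 2 (G ⧸ O) = ⊥ := Core.pPrimeCore_quotient_pPrimeCore 2 G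
  have hxbar : π x₁ ≠ 1 := fun e => hx1 (h2 x₁ 1 (by rw [pow_one]; exact hx2) e)
  have heven' : Even (Nat.card (G ⧸ O)) := by
    rw [even_iff_two_dvd]
    have h := orderOf_dvd_natCard (π x₁)
    rwa [orderOf_eq_prime (by rw [← map_pow, hx2, map_one]) hxbar] at h
  have hconj' : ∀ x y : G ⧸ O, x ≠ 1 → x ^ 2 = 1 → y ≠ 1 → y ^ 2 = 1 → IsConj x y := by
    have hlift : ∀ x : G ⧸ O, x ≠ 1 → x ^ 2 = 1 → ∃ g : G, g ≠ 1 ∧ g ^ 2 = 1 ∧ π g = x := by
      intro x hx1 hx2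
      obtain ⟨g, hg⟩ := hπs x
      obtain ⟨i, m, hm, hord⟩ := Nat.exists_eq_two_pow_mul_odd (orderOf_pos g).ne'
      have hx : π (g ^ m) = x := by
        obtain ⟨l, rfl⟩ := hm
        rw [map_pow, hg, pow_succ, pow_mul, hx2, one_pow, one_mul]
      refine ⟨g ^ m, fun e => hx1 (by rw [← hx, e, map_one]), ?_, hx⟩
      have hgm : (g ^ m) ^ 2 ^ i = 1 := by rw [← pow_mul, mul_comm, ← hord, pow_orderOf_eq_one]
      exact h2 _ i (by rw [← pow_mul, mul_comm, pow_mul, hgm, one_pow]) (by rw [map_pow, hx, hx2])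
    intro x y hx1 hx2 hy1 hy2
    obtain ⟨g, hg1, hg2, rfl⟩ := hlift x hx1 hx2
    obtain ⟨g', hg1', hg2', rfl⟩ := hlift y hy1 hy2
    exact π.map_isConj (hconj g g' hg1 hg2 hg1' hg2')
  have htwo' : ∃ x y : G ⧸ O, x ≠ y ∧ x ≠ 1 ∧ x ^ 2 = 1 ∧ y ≠ 1 ∧ y ^ 2 = 1 :=
    ⟨π x₁, π y₁, fun e => hxy (congrArg Subtype.val (hinj (a₁ := ⟨x₁, hxS⟩) (a₂ := ⟨y₁, hyS⟩) e)), hxbar,
      by rw [← map_pow, hx2, map_one], fun e => hy1 (h2 y₁ 1 (by rw [pow_one]; exact hy2) e),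
      by rw [← map_pow, hy2, map_one]⟩
  set Sb := S.mapSurjective hπs with hSb
  have hSbF := sylow_eq_pCore hO' heven' htwo' hconj' Sb
  refine ⟨?_, ?_⟩
  · rw [← Core.pLengthLE_quotient_pPrimeCore_iff, Core.pLengthLE_one_iff, Core.pPrimePCore_eq_pCore hO', ← hSbF]
    exact ((Nat.Prime.coprime_iff_not_dvd Nat.prime_two).mpr Sb.not_dvd_index).symm
  have hSbn : ((Sb : Subgroup (G ⧸ O))).Normal := by rw [hSbF]; infer_instance
  haveI := hSbn
  have hcoe : (Sb : Subgroup (G ⧸ O)) = (π.comp (S : Subgroup G).subtype).range := by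
    rw [hSb, Sylow.coe_mapSurjective, MonoidHom.range_comp, Subgroup.range_subtype]
  let e : (S : Subgroup G) ≃* (Sb : Subgroup (G ⧸ O)) :=
    (MonoidHom.ofInjective hinj).trans (MulEquiv.subgroupCongr hcoe.symm)
  let f : G ⧸ O →* MulAut (S : Subgroup G) :=
    (MulAut.congr e.symm).toMonoidHom.comp MulAut.conjNormal
  have hY : ∀ x y : ↥(S : Subgroup G), x ≠ 1 → x ^ 2 = 1 → y ≠ 1 → y ^ 2 = 1 → ∃ a ∈ f.range, a x = y := by
    intro x y hx1 hx2 hy1 hy2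
    obtain ⟨c, hc⟩ := isConj_iff.mp (hconj' (e x : G ⧸ O) (e y : G ⧸ O)
      (fun h => hx1 (e.injective (Subtype.ext (h.trans (by rw [map_one]; rfl)))))
      (by rw [← SubmonoidClass.coe_pow, ← map_pow, hx2, map_one]; rfl)
      (fun h => hy1 (e.injective (Subtype.ext (h.trans (by rw [map_one]; rfl)))))
      (by rw [← SubmonoidClass.coe_pow, ← map_pow, hy2, map_one]; rfl))
    refine ⟨f c, ⟨c, rfl⟩, ?_⟩
    show e.symm (MulAut.conjNormal c (e x)) = y
    rw [e.symm_apply_eq]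
    exact Subtype.ext (by rw [MulAut.conjNormal_apply]; exact hc)
  by_cases hab : IsMulCommutative (S : Subgroup G)
  · left
    letI myInst_cg : CommGroup (S : Subgroup G) :=
      { (inferInstance : Group (S : Subgroup G)) with mul_comm := fun a b => mul_comm' a b }
    exact homocyclic_of_transitive S.2 fun x y h1 h1' h2 h2' => by
      obtain ⟨a, -, ha⟩ := hY x y h1 h1' h2 h2'
      exact ⟨a, ha⟩
  · exact Or.inr ⟨hab, f.range, Group.isSolvable_of_surjective f.rangeRestrict_surjective, hY⟩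

end Cfsg.Agent.Transfer.AllConj
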