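import Mathlib

/-! An anisotropic quadratic map and an inverting involution: commuting isometries move disjoint parts. -/

set_option autoImplicit false
set_option linter.unusedSectionVars false
set_option linter.style.haveILetI false

namespace Cfsg.Agent.Transfer.AllConj

theorem ringHom_eq_pow {L : Type*} [Field L] [Finite L] [CharP L 2] (φ : L →+* L) :
    ∃ i : ℕ, ∀ z : L, φ z = z ^ 2 ^ i := by
  letI := ZMod.algebra L 2
  let f : L →ₐ[ZMod 2] L := { φ with
    commutes' := fun r => RingHom.congr_fun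
      (Subsingleton.elim (φ.comp (algebraMap (ZMod 2) L)) (algebraMap (ZMod 2) L)) r }
  obtain ⟨i, hi⟩ := (FiniteField.bijective_frobeniusAlgHom_pow (ZMod 2) L).2 f
  refine ⟨i, fun z => ?_⟩
  have h := DFunLike.congr_fun hi z
  simp only [AlgHom.coe_pow, FiniteField.coe_frobeniusAlgHom, Nat.card_zmod] at h
  rw [pow_iterate] at h
  exact h.symm

/-- No two elements are inverted by one field endomorphism while another inverts exactly one of them. -/
theorem no_two_conjugations {L : Type*} [Field L] [Finite L] [CharP L 2] {g h : L} (hg : g ≠ 1) (hh : h ≠ 1)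
    {g' h' : L} (hgg : g * g' = 1) (hhh : h * h' = 1) (φ ψ : L →+* L) (hφg : φ g = g') (hφh : φ h = h')
    (hψg : ψ g = g) (hψh : ψ h = h') : False := by
  have hne : ∀ {a a' : L}, a * a' = 1 → a ≠ 1 → a' ≠ a := fun {a a'} e ha e' => by
    rw [e'] at e
    rcases mul_self_eq_one_iff.mp e with r | r
    · exact ha r
    · exact ha (r.trans (CharTwo.neg_eq 1))
  have hswap : ∀ (φ : L →+* L) {a a' : L}, a * a' = 1 → φ a = a' → φ a' = a := fun φ {a a'} e h1 => by
    have h2 : φ a * φ a' = 1 := by rw [← map_mul, e, map_one]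
    rw [h1] at h2
    have ha' : a' ≠ 0 := fun z => one_ne_zero (by rw [← e, z, mul_zero] : (1 : L) = 0)
    exact mul_left_cancel₀ ha' (h2.trans (by rw [mul_comm, e]))
  obtain ⟨i, hi⟩ := ringHom_eq_pow φ
  obtain ⟨j, hj⟩ := ringHom_eq_pow ψ
  -- iterates
  have hit : ∀ (χ : L →+* L) (k : ℕ), (∀ z, χ z = z ^ 2 ^ k) → ∀ (n : ℕ) (z : L), χ^[n] z = z ^ 2 ^ (k * n) := by
    intro χ k hk n
    induction n with
    | zero => intro z; simp
    | succ n ih => intro z; rw [Function.iterate_succ_apply', ih, hk, ← pow_mul, ← pow_add]; ring_nf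
  have hflip : ∀ (χ : L →+* L) {a a' : L}, a * a' = 1 → χ a = a' →
      ∀ n, χ^[n] a = if Even n then a else a' := by
    intro χ a a' e h1 n
    induction n with
    | zero => simp
    | succ n ih =>
      rw [Function.iterate_succ_apply', ih]
      by_cases hn : Even n
      · rw [if_pos hn, if_neg (by rw [Nat.even_add_one]; exact not_not.mpr hn), h1]
      · rw [if_neg hn, if_pos (Nat.even_add_one.mpr hn), hswap χ e h1]
  have hfix : ∀ n, ψ^[n] g = g := fun n => Function.iterate_fixed hψg n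
  by_cases hi0 : i = 0
  · have := hi g
    rw [hi0, pow_zero, pow_one, hφg] at this
    exact hne hgg hg this
  set d := Nat.gcd i j with hd
  have hdpos : 0 < d := Nat.gcd_pos_of_pos_left _ (Nat.pos_of_ne_zero hi0)
  obtain ⟨i', j', hcop, hi', hj'⟩ := Nat.exists_coprime i j
  have he : ∀ z : L, φ^[j'] z = ψ^[i'] z := fun z => by
    rw [hit φ i hi, hit ψ j hj]
    congr 2
    rw [← hd] at hi' hj'
    calc i * j' = i' * d * j' := by rw [← hi']
      _ = j' * d * i' := by ring
      _ = j * i' := by rw [← hj']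
  have hg' := he g
  rw [hflip φ hgg hφg, hfix] at hg'
  have hje : Even j' := by
    by_contra hc
    rw [if_neg hc] at hg'
    exact hne hgg hg hg'
  have hh' := he h
  rw [hflip φ hhh hφh, hflip ψ hhh hψh, if_pos hje] at hh'
  have hie : Even i' := by
    by_contra hc
    rw [if_neg hc] at hh'
    exact hne hhh hh hh'.symm
  have := Nat.eq_one_of_dvd_coprimes hcop (even_iff_two_dvd.mp hie) (even_iff_two_dvd.mp hje)
  omega

variable {V E : Type*} [AddCommGroup V] [AddCommGroup E]

/-- The form attached to a quadratic map. -/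
def pol (q : V → E) (u v : V) : E := q (u + v) - q u - q v

theorem pow_fix_odd {x : AddMonoid.End V} {n : ℕ} (hn : Odd n) (hxn : x ^ n = 1) {u : V} (h : x (x u) = u) :
    x u = u := by
  obtain ⟨k, rfl⟩ := hn
  have : ∀ k, (x ^ (2 * k)) u = u := fun k => by
    induction k with
    | zero => rfl
    | succ k ih => rw [show 2 * (k + 1) = 2 * k + 1 + 1 by ring, pow_succ, pow_succ]; show (x ^ (2*k)) (x (x u)) = u; rw [h, ih]
  have h1 := DFunLike.congr_fun hxn u
  rw [pow_succ'] at h1
  rw [show (x * x ^ (2 * k)) u = x ((x ^ (2 * k)) u) from rfl, this] at h1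
  exact h1

/-- The main core statement. -/
theorem core [Finite V] (hV : ∀ v : V, v + v = 0) (hE : ∀ e : E, e + e = 0) (q : V → E)
    (hq0 : ∀ v, q v = 0 → v = 0) (hB : ∀ u v w, pol q (u + v) w = pol q u w + pol q v w)
    (x b t : AddMonoid.End V) {n m : ℕ} (hn : Odd n) (hm : Odd m) (hxn : x ^ n = 1) (hbm : b ^ m = 1)
    (hxb : x * b = b * x) (hxt : x * t * x = t) (hbt : b * t = t * b)
    (hqx : ∀ v, q (x v) = q v) (hqb : ∀ v, q (b v) = q v) (hqt : ∀ v, q (t v) = q v) (v : V) :
    (x - 1) ((b - 1) v) = 0 := by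
  classical
  haveI : Finite (AddMonoid.End V) := Finite.of_injective (fun f => (f : V → V)) DFunLike.coe_injective
  by_contra hne
  set f : AddMonoid.End V := (x - 1) * (b - 1) with hf
  set R := AddMonoidHom.range (f : V →+ V) with hR
  have cx : Commute x f := ((Commute.refl x).sub_right (Commute.one_right x)).mul_right
    ((show Commute x b from hxb).sub_right (Commute.one_right x))
  have cb : Commute b f := ((show Commute b x from hxb.symm).sub_right (Commute.one_right b)).mul_right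
    ((Commute.refl b).sub_right (Commute.one_right b))
  obtain ⟨U, ⟨hUR, hUx, hUb, hU0⟩, hmin⟩ := (wellFounded_lt (α := AddSubgroup V)).has_min
    {U | U ≤ R ∧ (∀ u ∈ U, x u ∈ U) ∧ (∀ u ∈ U, b u ∈ U) ∧ U ≠ ⊥}
    ⟨R, le_rfl,
      by rintro _ ⟨w, rfl⟩; exact ⟨x w, (DFunLike.congr_fun cx.eq w).symm⟩,
      by rintro _ ⟨w, rfl⟩; exact ⟨b w, (DFunLike.congr_fun cb.eq w).symm⟩,
      fun e => hne ((AddSubgroup.mem_bot).mp (e.le (⟨v, rfl⟩ : f v ∈ R)))⟩
  have hsmall : ∀ W : AddSubgroup V, W ≤ U → (∀ u ∈ W, x u ∈ W) → (∀ u ∈ W, b u ∈ W) → W = ⊥ ∨ W = U :=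
    fun W hle h1 h2 => or_iff_not_imp_left.mpr fun h0 =>
      hle.eq_of_not_lt (hmin W ⟨hle.trans hUR, h1, h2, h0⟩)
  -- no fixed points on `U`
  have hodd : ∀ (k : ℕ) (u : V), Odd k → k • u = u := by
    rintro _ u ⟨k, rfl⟩
    rw [add_nsmul, one_nsmul, mul_nsmul, two_nsmul, hV, nsmul_zero, zero_add]
  have hnofix : ∀ (g : AddMonoid.End V) (k : ℕ), Odd k → g ^ k = 1 → ∀ u w : V, g u = u → u = (g - 1) w → u = 0 := by
    intro g k hk hgk u w hu huw
    have hgw : g w = w + u := by
      rw [huw]; show g w = w + (g w - w); abel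
    have hp : ∀ i : ℕ, (g ^ i) w = w + i • u := by
      intro i
      induction i with
      | zero => simp
      | succ i ih =>
        rw [pow_succ']
        show g ((g ^ i) w) = _
        rw [ih, map_add, map_nsmul, hu, hgw, succ_nsmul]
        abel
    have h := hp k
    rw [hgk, hodd k u hk] at h
    exact left_eq_add.mp h
  have hfx : ∀ u ∈ U, x u = u → u = 0 := fun u hu e => by
    obtain ⟨w, rfl⟩ := hUR hu
    exact hnofix x n hn hxn _ ((b - 1) w) e rfl
  have hfb : ∀ u ∈ U, b u = u → u = 0 := fun u hu e => by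
    obtain ⟨w, hw⟩ := hUR hu
    refine hnofix b m hm hbm u ((x - 1) w) e ?_
    rw [← hw]
    exact DFunLike.congr_fun (((show Commute x b from hxb).sub_left (Commute.one_left b)).sub_right
      (Commute.one_right (x - 1))).eq w
  obtain ⟨u0, hu0, hu01⟩ := U.bot_or_exists_ne_zero.resolve_left hU0
  -- the algebra
  set A : Subring (AddMonoid.End V) := Subring.closure {x, b} with hA
  have hgx : x ∈ A := Subring.subset_closure (Or.inl rfl)
  have hgb : b ∈ A := Subring.subset_closure (Or.inr rfl)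
  let K : Subring (AddMonoid.End V) :=
    { carrier := {a | Commute a x ∧ Commute a b ∧ ∀ u ∈ U, a u ∈ U}
      one_mem' := ⟨Commute.one_left _, Commute.one_left _, fun u hu => hu⟩
      mul_mem' := fun {a c} ha hc => ⟨ha.1.mul_left hc.1, ha.2.1.mul_left hc.2.1, fun u hu => ha.2.2 _ (hc.2.2 u hu)⟩
      zero_mem' := ⟨Commute.zero_left _, Commute.zero_left _, fun u _ => zero_mem U⟩
      add_mem' := fun {a c} ha hc => ⟨ha.1.add_left hc.1, ha.2.1.add_left hc.2.1,
        fun u hu => add_mem (ha.2.2 u hu) (hc.2.2 u hu)⟩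
      neg_mem' := fun {a} ha => ⟨ha.1.neg_left, ha.2.1.neg_left, fun u hu => neg_mem (ha.2.2 u hu)⟩ }
  have hAK : A ≤ K := Subring.closure_le.mpr (by
    rintro g (rfl | rfl)
    · exact ⟨Commute.refl _, hxb, hUx⟩
    · exact ⟨hxb.symm, Commute.refl _, hUb⟩)
  letI myInst_cr : CommRing A := Subring.closureCommRingOfComm (s := {x, b}) (by
    rintro _ (rfl | rfl) _ (rfl | rfl)
    · rfl
    · exact hxb
    · exact hxb.symm
    · rfl)
  let I : Ideal A :=
    { carrier := {a | ∀ u ∈ U, (a : AddMonoid.End V) u = 0}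
      add_mem' := fun {a c} ha hc u hu => by
        show (a : AddMonoid.End V) u + (c : AddMonoid.End V) u = 0
        rw [ha u hu, hc u hu, add_zero]
      zero_mem' := fun u _ => rfl
      smul_mem' := fun c a ha u hu => by
        show (c : AddMonoid.End V) ((a : AddMonoid.End V) u) = 0
        rw [ha u hu, map_zero] }
  have hIp : I.IsPrime := by
    refine ⟨fun e => hu01 ((I.eq_top_iff_one.mp e) u0 hu0), fun {a c} hac => or_iff_not_imp_left.mpr fun ha => ?_⟩
    intro u hu
    have hker := hsmall (U ⊓ (AddMonoidHom.ker ((a : AddMonoid.End V) : V →+ V))) inf_le_left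
      (fun w hw => ⟨hUx w hw.1, by
        show (a : AddMonoid.End V) (x w) = 0
        rw [show (a : AddMonoid.End V) (x w) = x ((a : AddMonoid.End V) w) from DFunLike.congr_fun (hAK a.2).1.eq w,
          show (a : AddMonoid.End V) w = 0 from hw.2, map_zero]⟩)
      (fun w hw => ⟨hUb w hw.1, by
        show (a : AddMonoid.End V) (b w) = 0
        rw [show (a : AddMonoid.End V) (b w) = b ((a : AddMonoid.End V) w) from DFunLike.congr_fun (hAK a.2).2.1.eq w,
          show (a : AddMonoid.End V) w = 0 from hw.2, map_zero]⟩)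
    rcases hker with e | e
    · exact (AddSubgroup.mem_bot).mp (e.le ⟨(hAK c.2).2.2 u hu, hac u hu⟩)
    · exact absurd (fun w hw => (e.ge hw).2) ha
  haveI : Finite A := Subtype.finite
  haveI : Finite (A ⧸ I) := Finite.of_surjective (Ideal.Quotient.mk I) Ideal.Quotient.mk_surjective
  letI myInst_field : Field (A ⧸ I) := (Finite.isField_of_domain (A ⧸ I)).toField
  haveI : CharP (A ⧸ I) 2 := by
    refine CharTwo.of_one_ne_zero_of_two_eq_zero one_ne_zero ?_
    rw [← one_add_one_eq_two, ← map_one (Ideal.Quotient.mk I), ← map_add, Ideal.Quotient.eq_zero_iff_mem]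
    exact fun u _ => hV u
  let X : A := ⟨x, hgx⟩
  let Bb : A := ⟨b, hgb⟩
  let X' : A := ⟨x ^ (n - 1), pow_mem hgx _⟩
  let Bb' : A := ⟨b ^ (m - 1), pow_mem hgb _⟩
  have hinv : ∀ (g : AddMonoid.End V) (k : ℕ), Odd k → g ^ k = 1 →
      g * g ^ (k - 1) = 1 ∧ g ^ (k - 1) * g = 1 := fun g k hk hgk => by
    have := hk.pos
    exact ⟨by rw [← pow_succ', Nat.sub_add_cancel this, hgk], by rw [← pow_succ, Nat.sub_add_cancel this, hgk]⟩
  have hX1 : Ideal.Quotient.mk I X ≠ 1 := fun e => by
    rw [← map_one (Ideal.Quotient.mk I), Ideal.Quotient.eq] at e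
    exact hu01 (hfx u0 hu0 (sub_eq_zero.mp (e u0 hu0)))
  have hB1 : Ideal.Quotient.mk I Bb ≠ 1 := fun e => by
    rw [← map_one (Ideal.Quotient.mk I), Ideal.Quotient.eq] at e
    exact hu01 (hfb u0 hu0 (sub_eq_zero.mp (e u0 hu0)))
  -- the twisted adjoints
  have hB0 : ∀ w, pol q 0 w = 0 := fun w => by
    have := hB 0 0 w
    rw [add_zero] at this
    exact left_eq_add.mp this
  have hBsymm : ∀ u w, pol q u w = pol q w u := fun u w => by simp only [pol, add_comm u w]; abel
  have hBr : ∀ u w w', pol q u (w + w') = pol q u w + pol q u w' := fun u w w' => by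
    rw [hBsymm, hB, hBsymm w, hBsymm w']
  have hiso : ∀ g : AddMonoid.End V, (∀ w, q (g w) = q w) → ∀ u w, pol q (g u) (g w) = pol q u w :=
    fun g hg u w => by simp only [pol, ← map_add, hg]
  have hmove : ∀ (g g' : AddMonoid.End V), (∀ w, q (g w) = q w) → g * g' = 1 →
      ∀ u w, pol q (g u) w = pol q u (g' w) := fun g g' hg hgg u w => by
    conv_lhs => rw [show w = g (g' w) from (DFunLike.congr_fun hgg w).symm]
    exact hiso g hg _ _
  have twist : ∀ (τ : AddMonoid.End V), (∃ u ∈ U, ∃ w ∈ U, pol q u (τ w) ≠ 0) → ∀ (xa xc ba bc : A),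
      (∀ u w, pol q (x u) (τ w) = pol q u (τ ((xa : AddMonoid.End V) w))) →
      (∀ u w, pol q ((xc : AddMonoid.End V) u) (τ w) = pol q u (τ (x w))) →
      (∀ u w, pol q (b u) (τ w) = pol q u (τ ((ba : AddMonoid.End V) w))) →
      (∀ u w, pol q ((bc : AddMonoid.End V) u) (τ w) = pol q u (τ (b w))) →
      ∃ φ : (A ⧸ I) →+* (A ⧸ I), φ (Ideal.Quotient.mk I X) = Ideal.Quotient.mk I xa ∧
        φ (Ideal.Quotient.mk I Bb) = Ideal.Quotient.mk I ba := by
    intro τ hτ xa xc ba bc hxa hxc hba hbc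
    let rel : A → A → Prop := fun a a' => ∀ u ∈ U, ∀ w ∈ U,
      pol q ((a : AddMonoid.End V) u) (τ w) = pol q u (τ ((a' : AddMonoid.End V) w))
    have hrad : ∀ w ∈ U, (∀ u ∈ U, pol q u (τ w) = 0) → w = 0 := by
      let W : AddSubgroup V :=
        { carrier := {w | w ∈ U ∧ ∀ u ∈ U, pol q u (τ w) = 0}
          zero_mem' := ⟨zero_mem U, fun u _ => by rw [map_zero, hBsymm, hB0]⟩
          add_mem' := fun {a c} ha hc => ⟨add_mem ha.1 hc.1, fun u hu => by
            rw [map_add, hBr, ha.2 u hu, hc.2 u hu, add_zero]⟩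
          neg_mem' := fun {a} ha => by
            rw [show -a = a from neg_eq_of_add_eq_zero_left (hV a)]
            exact ha }
      intro w hw hz
      rcases hsmall W (fun _ h => h.1)
        (fun a ha => ⟨hUx a ha.1, fun u hu => by rw [← hxc]; exact ha.2 _ ((hAK xc.2).2.2 u hu)⟩)
        (fun a ha => ⟨hUb a ha.1, fun u hu => by rw [← hbc]; exact ha.2 _ ((hAK bc.2).2.2 u hu)⟩) with e | e
      · exact AddSubgroup.mem_bot.mp (e.le (⟨hw, hz⟩ : w ∈ W))
      · obtain ⟨u, hu, w', hw', hne'⟩ := hτ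
        exact absurd ((e.ge hw').2 u hu) hne'
    have huniq : ∀ a c c', rel a c → rel a c' → Ideal.Quotient.mk I c = Ideal.Quotient.mk I c' := by
      intro a c c' h h'
      rw [Ideal.Quotient.eq]
      intro w hw
      refine hrad _ ((hAK (c - c').2).2.2 w hw) fun u hu => ?_
      show pol q u (τ ((c : AddMonoid.End V) w - (c' : AddMonoid.End V) w)) = 0
      rw [sub_eq_add_neg, show -((c' : AddMonoid.End V) w) = (c' : AddMonoid.End V) w from
        neg_eq_of_add_eq_zero_left (hV _), map_add, hBr, ← h u hu w hw, ← h' u hu w hw]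
      exact hE _
    have h1 : rel 1 1 := fun u _ w _ => rfl
    have h0 : rel 0 0 := fun u _ w _ => by
      show pol q 0 (τ w) = pol q u (τ 0)
      rw [hB0, map_zero, hBsymm, hB0]
    have hadd : ∀ {a a' c c'}, rel a a' → rel c c' → rel (a + c) (a' + c') := fun {a a' c c'} h h' u hu w hw => by
      show pol q ((a : AddMonoid.End V) u + (c : AddMonoid.End V) u) (τ w) =
        pol q u (τ ((a' : AddMonoid.End V) w + (c' : AddMonoid.End V) w))
      rw [map_add, hBr, hB, h u hu w hw, h' u hu w hw]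
    have hmul : ∀ {a a' c c'}, rel a a' → rel c c' → rel (a * c) (a' * c') := fun {a a' c c'} h h' u hu w hw => by
      show pol q ((a : AddMonoid.End V) ((c : AddMonoid.End V) u)) (τ w) = pol q u (τ (((a' * c' : A) : AddMonoid.End V) w))
      rw [h _ ((hAK c.2).2.2 u hu) w hw, h' u hu _ ((hAK a'.2).2.2 w hw), mul_comm a' c']
      rfl
    have hneg : ∀ {a a'}, rel a a' → rel (-a) (-a') := fun {a a'} h u hu w hw => by
      show pol q (-((a : AddMonoid.End V) u)) (τ w) = pol q u (τ (-((a' : AddMonoid.End V) w)))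
      rw [show -((a : AddMonoid.End V) u) = (a : AddMonoid.End V) u from neg_eq_of_add_eq_zero_left (hV _),
        show -((a' : AddMonoid.End V) w) = (a' : AddMonoid.End V) w from neg_eq_of_add_eq_zero_left (hV _)]
      exact h u hu w hw
    let Γ : Subring (AddMonoid.End V) :=
      { carrier := {g | ∃ h : g ∈ A, ∃ a', rel ⟨g, h⟩ a'}
        one_mem' := ⟨one_mem A, 1, h1⟩
        zero_mem' := ⟨zero_mem A, 0, h0⟩
        add_mem' := fun ⟨ha, a', h⟩ ⟨hc, c', h'⟩ => ⟨add_mem ha hc, a' + c', hadd h h'⟩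
        mul_mem' := fun ⟨ha, a', h⟩ ⟨hc, c', h'⟩ => ⟨mul_mem ha hc, a' * c', hmul h h'⟩
        neg_mem' := fun ⟨ha, a', h⟩ => ⟨neg_mem ha, -a', hneg h⟩ }
    have hΓ : A ≤ Γ := Subring.closure_le.mpr (by
      rintro g (rfl | rfl)
      · exact ⟨hgx, xa, fun u _ w _ => hxa u w⟩
      · exact ⟨hgb, ba, fun u _ w _ => hba u w⟩)
    choose p hp using fun a : A => (hΓ a.2).2
    let φ₀ : A →+* (A ⧸ I) :=
      { toFun := fun a => Ideal.Quotient.mk I (p a)
        map_one' := (huniq 1 _ 1 (hp 1) h1).trans (map_one _)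
        map_mul' := fun a c => (huniq _ _ _ (hp (a * c)) (hmul (hp a) (hp c))).trans (map_mul _ _ _)
        map_zero' := (huniq 0 _ 0 (hp 0) h0).trans (map_zero _)
        map_add' := fun a c => (huniq _ _ _ (hp (a + c)) (hadd (hp a) (hp c))).trans (map_add _ _ _) }
    refine ⟨Ideal.Quotient.lift I φ₀ fun a ha => ?_,
      (Ideal.Quotient.lift_mk I φ₀ _).trans (huniq X _ xa (hp X) fun u _ w _ => hxa u w),
      (Ideal.Quotient.lift_mk I φ₀ _).trans (huniq Bb _ ba (hp Bb) fun u _ w _ => hba u w)⟩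
    refine (huniq a _ 0 (hp a) fun u hu w _ => ?_).trans (map_zero _)
    show pol q ((a : AddMonoid.End V) u) (τ w) = pol q u (τ 0)
    rw [ha u hu, hB0, map_zero, hBsymm, hB0]
  obtain ⟨hx1, hx2⟩ := hinv x n hn hxn
  obtain ⟨hb1, hb2⟩ := hinv b m hm hbm
  have hqx' : ∀ w, q ((x ^ (n - 1)) w) = q w := fun w => by
    conv_rhs => rw [show w = x ((x ^ (n - 1)) w) from (DFunLike.congr_fun hx1 w).symm, hqx]
  have hqb' : ∀ w, q ((b ^ (m - 1)) w) = q w := fun w => by
    conv_rhs => rw [show w = b ((b ^ (m - 1)) w) from (DFunLike.congr_fun hb1 w).symm, hqb]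
  -- the two cases
  have hone : ∃ u ∈ U, ∃ w ∈ U, pol q u ((1 : AddMonoid.End V) w) ≠ 0 := by
    by_contra hc
    push Not at hc
    refine hu01 (hfx u0 hu0 ?_)
    have h := hc (x u0) (hUx u0 hu0) u0 hu0
    simp only [pol, AddMonoid.End.coe_one, id_eq] at h
    rw [hqx, sub_sub, hE, sub_zero] at h
    exact (eq_neg_of_add_eq_zero_left (hq0 _ h)).trans (neg_eq_of_add_eq_zero_left (hV u0))
  have htt : ∃ u ∈ U, ∃ w ∈ U, pol q u (t w) ≠ 0 := by
    by_contra hc
    push Not at hc
    have hfix : ∀ u ∈ U, t u = u := fun u hu => by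
      have h := hc u hu u hu
      simp only [pol] at h
      rw [hqt, sub_sub, hE, sub_zero] at h
      exact (eq_neg_of_add_eq_zero_right (hq0 _ h)).trans (neg_eq_of_add_eq_zero_left (hV u))
    refine hu01 (hfx u0 hu0 (pow_fix_odd hn hxn ?_))
    have h := DFunLike.congr_fun hxt u0
    rw [show (x * t * x) u0 = x (t (x u0)) from rfl, hfix _ (hUx u0 hu0), hfix u0 hu0] at h
    exact h
  have hxt' : t * x = x ^ (n - 1) * t := by
    calc t * x = (x ^ (n - 1) * x) * (t * x) := by rw [hx2, one_mul]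
      _ = x ^ (n - 1) * (x * t * x) := by simp only [mul_assoc]
      _ = x ^ (n - 1) * t := by rw [hxt]
  have hbt' : t * b ^ (m - 1) = b ^ (m - 1) * t := ((show Commute b t from hbt).pow_left _).eq.symm
  obtain ⟨ι, hι1, hι2⟩ := twist 1 hone X' X' Bb' Bb' (fun u w => hmove x _ hqx hx1 u w)
    (fun u w => hmove _ x hqx' hx2 u w) (fun u w => hmove b _ hqb hb1 u w) (fun u w => hmove _ b hqb' hb2 u w)
  obtain ⟨κ, hκ1, hκ2⟩ := twist t htt X X Bb' Bb'
    (fun u w => (hmove x _ hqx hx1 u _).trans (congrArg (pol q u) (DFunLike.congr_fun hxt' w).symm))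
    (fun u w => (hmove x _ hqx hx1 u _).trans (congrArg (pol q u) (DFunLike.congr_fun hxt' w).symm))
    (fun u w => (hmove b _ hqb hb1 u _).trans (congrArg (pol q u) (DFunLike.congr_fun hbt' w).symm))
    (fun u w => (hmove _ b hqb' hb2 u _).trans (congrArg (pol q u) (DFunLike.congr_fun hbt w)))
  refine no_two_conjugations hX1 hB1 ?_ ?_ ι κ hι1 hι2 hκ1 hκ2
  · rw [← map_mul, ← map_one (Ideal.Quotient.mk I)]
    exact congrArg _ (Subtype.ext hx1)
  · rw [← map_mul, ← map_one (Ideal.Quotient.mk I)]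
    exact congrArg _ (Subtype.ext hb1)

end Cfsg.Agent.Transfer.AllConj
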