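import Cfsg.Agent.Transfer.AllConj.Linear
import Cfsg.Agent.OddLocal.RankTwo.Omega
import Cfsg.Agent.Core.Cores
import Cfsg.Agent.Core.Fitting
import Cfsg.Agent.Core.MinimalNormal

/-! If all involutions are central in `O_2(G)` and moved freely, a Sylow two-subgroup is normal. -/

set_option autoImplicit false
set_option linter.unusedSectionVars false
set_option linter.style.haveILetI false

namespace Cfsg.Agent.Transfer.AllConj

open Subgroup

universe u

variable {G : Type u} [Group G] [Finite G]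

theorem odd_orderOf_pow {g : G} {i m : ℕ} (hm : Odd m) (h : orderOf g = 2 ^ i * m) :
    Odd (orderOf (g ^ 2 ^ i)) := by
  refine Odd.of_dvd_nat hm (orderOf_dvd_of_pow_eq_one ?_)
  rw [← pow_mul, ← h, pow_orderOf_eq_one]

/-- The subgroup generated by the two-parts: an element with a fixed coset. -/
theorem exists_fixed_in_coset_two {r : ℕ} [Fact r.Prime] (hr : r ≠ 2) {k : ℕ} {a : G} (hak : a ^ r ^ k = 1)
    (T : Subgroup G) (hT : IsPGroup 2 T) (haT : ∀ t ∈ T, a * t * a⁻¹ ∈ T) {g : G}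
    (hg : g⁻¹ * (a * g * a⁻¹) ∈ T) : ∃ t ∈ T, a * (g * t) * a⁻¹ = g * t := by
  let σ : Equiv.Perm T := Equiv.ofBijective
    (fun t => ⟨g⁻¹ * (a * g * a⁻¹) * (a * t * a⁻¹), mul_mem hg (haT _ t.2)⟩)
    (Finite.injective_iff_bijective.mp fun t t' e => Subtype.ext
      (mul_left_cancel (mul_right_cancel (mul_left_cancel (congrArg Subtype.val e)))))
  have hσi : ∀ (i : ℕ) (t : T), g * ((σ ^ i) t : G) = a ^ i * (g * t) * (a ^ i)⁻¹ := by
    intro i t
    induction i with
    | zero => simp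
    | succ i ih =>
      rw [pow_succ', Equiv.Perm.mul_apply]
      show g * (g⁻¹ * (a * g * a⁻¹) * (a * ((σ ^ i) t : G) * a⁻¹)) = _
      calc g * (g⁻¹ * (a * g * a⁻¹) * (a * ((σ ^ i) t : G) * a⁻¹))
          = a * (g * ((σ ^ i) t : G)) * a⁻¹ := by group
        _ = a * (a ^ i * (g * t) * (a ^ i)⁻¹) * a⁻¹ := by rw [ih]
        _ = a ^ (i + 1) * (g * t) * (a ^ (i + 1))⁻¹ := by rw [pow_succ']; group
  obtain ⟨z, hz⟩ := exists_fixed_of_period σ (k := k)
    (Equiv.ext fun t => Subtype.ext (mul_left_cancel ((hσi _ t).trans (by rw [hak]; simp)))) (by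
      obtain ⟨e, he⟩ := IsPGroup.iff_card.mp hT
      rw [he]
      exact fun h => hr ((Nat.prime_dvd_prime_iff_eq Fact.out Nat.prime_two).mp
        ((Fact.out : r.Prime).dvd_of_dvd_pow h)))
  refine ⟨z, z.2, ?_⟩
  have h := hσi 1 z
  rw [pow_one, pow_one, hz] at h
  exact h.symm

set_option maxHeartbeats 1000000 in
/-- The Sylow two-subgroup lies in `O_2(G)`. -/
theorem sylow_le_pCore [Group.IsSolvable G]
    (hCF : centralizer ((Cfsg.pCore 2 G : Subgroup G) : Set G) ≤ Cfsg.pCore 2 G)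
    (hinv : ∀ e : G, e * e = 1 → e ∈ Cfsg.pCore 2 G ∧ ∀ f ∈ Cfsg.pCore 2 G, e * f = f * e)
    (S : Sylow 2 G) (hSK : ∀ s ∈ (S : Subgroup G), ∀ e : G, e * e = 1 → s * e = e * s)
    (a : G) (haS : ∀ s ∈ (S : Subgroup G), a * s * a⁻¹ ∈ (S : Subgroup G)) {r : ℕ} [Fact r.Prime] (hr : r ≠ 2)
    {k : ℕ} (hak : a ^ r ^ k = 1) (har : ∀ e : G, e * e = 1 → a ^ r * e = e * a ^ r)
    (hfree : ∀ e : G, e * e = 1 → a * e * a⁻¹ = e → e = 1) :
    (S : Subgroup G) ≤ Cfsg.pCore 2 G := by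
  classical
  by_contra hSF
  haveI : Fact (Nat.Prime 2) := ⟨Nat.prime_two⟩
  set F := Cfsg.pCore 2 G with hF
  have hFp : IsPGroup 2 F := Core.isPGroup_pCore 2 G
  haveI hFn : F.Normal := by rw [hF]; infer_instance
  -- two-elements commuting with `a` are trivial
  have hfree2 : ∀ g : G, (∃ i : ℕ, g ^ 2 ^ i = 1) → a * g * a⁻¹ = g → g = 1 := by
    rintro g ⟨i, hi⟩ hga
    induction i generalizing g with
    | zero => simpa using hi
    | succ i ih =>
      have h1 : g ^ 2 ^ i = 1 := hfree _ (by rw [← pow_add, ← two_mul, ← pow_succ', hi]) (by rw [← conj_pow, hga])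
      exact ih g h1 hga
  -- the critical subgroup
  obtain ⟨Hc, A, hHchar, hAH, hHA, hHself, hHsq, hHcomm⟩ := OddLocal.RankTwo.exists_critical hFp
  haveI := hHchar
  set C : Subgroup G := Hc.map F.subtype with hC
  have hCn : C.Normal := by rw [hC]; infer_instance
  have hCle : C ≤ F := Subgroup.map_subtype_le Hc
  let W : Subgroup G :=
    { carrier := {w | w ∈ C ∧ w * w * (w * w) = 1}
      one_mem' := ⟨one_mem C, by group⟩
      mul_mem' := by
        rintro x y ⟨hx, hx4⟩ ⟨hy, hy4⟩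
        refine ⟨mul_mem hx hy, ?_⟩
        obtain ⟨x, hxH, rfl⟩ := hx
        obtain ⟨y, hyH, rfl⟩ := hy
        set c := x⁻¹ * y * x * y⁻¹ with hc
        have hcA : c ∈ A := by
          have := hHcomm _ (inv_mem hxH) y
          rwa [commutatorElement_def, inv_inv] at this
        have hcen : ∀ w ∈ Hc, ∀ g ∈ A, w * g = g * w := fun w hw g hg =>
          (Subgroup.mem_centralizer_iff.mp (hHA hw) g hg).symm
        have hcc : c * c = 1 := by
          calc c * c = x⁻¹ * c * (y * x * y⁻¹) := by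
                rw [hcen _ (inv_mem hxH) c hcA, hc]; group
            _ = x⁻¹ * (x⁻¹ * ((y * (x * x) * y⁻¹))) := by rw [hc]; group
            _ = x⁻¹ * (x⁻¹ * (x * x)) := by
                rw [hcen y hyH (x * x) (by have := hHsq x hxH; rwa [pow_two] at this), mul_inv_cancel_right]
            _ = 1 := by group
        have hce := (hinv (c : G) (by rw [← Subgroup.coe_mul, hcc]; rfl)).2
        have e : (x : G) * y * (x * y) = (c : G) * ((x * x) * (y * y)) := by
          have h0 : (c : G) = (x : G)⁻¹ * y * x * (y : G)⁻¹ := by simp [hc]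
          calc (x : G) * y * (x * y) = x * x * ((x : G)⁻¹ * y * x * (y : G)⁻¹) * (y * y) := by group
            _ = x * x * c * (y * y) := by rw [h0]
            _ = _ := by rw [← hce _ (mul_mem x.2 x.2)]; group
        show (x : G) * y * (x * y) * ((x : G) * y * (x * y)) = 1
        rw [e]
        clear_value c
        have hcw := hce ((x * x) * (y * y)) (mul_mem (mul_mem x.2 x.2) (mul_mem y.2 y.2))
        have hxe := (hinv _ hx4).2 _ (mul_mem y.2 y.2)
        simp only [Subgroup.coe_subtype] at hxe hx4 hy4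
        calc (c : G) * (x * x * (y * y)) * ((c : G) * (x * x * (y * y)))
            = (c : G) * ((x * x * (y * y)) * c) * (x * x * (y * y)) := by group
          _ = (c : G) * (c * (x * x * (y * y))) * (x * x * (y * y)) := by rw [hcw]
          _ = ((c * c : F) : G) * ((x * x) * ((y * y) * (x * x)) * (y * y)) := by rw [Subgroup.coe_mul]; group
          _ = ((c * c : F) : G) * ((x * x * (x * x)) * (y * y * (y * y))) := by rw [← hxe]; group
          _ = 1 := by rw [hcc, hx4, hy4]; simp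
      inv_mem' := fun {w} hw => ⟨inv_mem hw.1, by
        rw [show w⁻¹ * w⁻¹ * (w⁻¹ * w⁻¹) = (w * w * (w * w))⁻¹ by group, hw.2, inv_one]⟩ }
  have hWF : ∀ w ∈ W, w ∈ F := fun w hw => hCle hw.1
  have hsq : ∀ w : W, ((w : G) * w) * ((w : G) * w) = 1 := fun w => w.2.2
  let E : Subgroup G :=
    { carrier := {e | e * e = 1}
      one_mem' := one_mul 1
      mul_mem' := fun {a b} ha hb => by
        show a * b * (a * b) = 1
        have := (hinv a ha).2 b (hinv b hb).1
        calc a * b * (a * b) = a * (b * a) * b := by group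
          _ = a * (a * b) * b := by rw [this]
          _ = (a * a) * (b * b) := by group
          _ = 1 := by rw [show a * a = 1 from ha, show b * b = 1 from hb, one_mul]
      inv_mem' := fun {a} ha => by
        show a⁻¹ * a⁻¹ = 1
        rw [← mul_inv_rev, show a * a = 1 from ha, inv_one] }
  have hEW : E ≤ W := fun e he => by
    refine ⟨⟨⟨e, (hinv e he).1⟩, hHself ?_, rfl⟩, by rw [show e * e = 1 from he, one_mul]⟩
    exact Subgroup.mem_centralizer_iff.mpr fun x _ => Subtype.ext ((hinv e he).2 x x.2).symm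
  have hWn : ∀ g : G, ∀ w ∈ W, g * w * g⁻¹ ∈ W := fun g w hw => ⟨hCn.conj_mem w hw.1 g, by
    rw [show g * w * g⁻¹ * (g * w * g⁻¹) * (g * w * g⁻¹ * (g * w * g⁻¹)) = g * (w * w * (w * w)) * g⁻¹ by group,
      hw.2]
    group⟩
  set EW := E.subgroupOf W with hEWdef
  haveI hEWn : EW.Normal := ⟨fun e he w => by
    show ((w : G) * e * (w : G)⁻¹) * ((w : G) * e * (w : G)⁻¹) = 1
    rw [show (w : G) * e * (w : G)⁻¹ * ((w : G) * e * (w : G)⁻¹) = (w : G) * ((e : G) * e) * (w : G)⁻¹ by group,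
      show (e : G) * e = 1 from he]
    group⟩
  have hdl : ∀ x y : W, ((x : G)⁻¹ * y * x * (y : G)⁻¹) ∈ E := fun x y => by
    have hx := hsq x; have hy := hsq y; have hxy := hsq (x * y)
    -- the square of a product
    rw [Subgroup.coe_mul] at hxy
    have hx2 := (hinv _ hx).2 _ (hWF _ y.2)
    obtain ⟨⟨a', ha', hax⟩, -⟩ := x.2
    obtain ⟨⟨b', hb', hby⟩, -⟩ := y.2
    have hcA : a'⁻¹ * b' * a' * b'⁻¹ ∈ A := by
      have := hHcomm _ (inv_mem ha') b'
      rwa [commutatorElement_def, inv_inv] at this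
    have hcx : (x : G) * ((x : G)⁻¹ * y * x * (y : G)⁻¹) = ((x : G)⁻¹ * y * x * (y : G)⁻¹) * x := by
      rw [← hax, ← hby]
      exact congrArg Subtype.val (Subgroup.mem_centralizer_iff.mp (hHA ha') _ hcA).symm
    show (x : G)⁻¹ * y * x * (y : G)⁻¹ * ((x : G)⁻¹ * y * x * (y : G)⁻¹) = 1
    calc (x : G)⁻¹ * y * x * (y : G)⁻¹ * ((x : G)⁻¹ * y * x * (y : G)⁻¹)
        = (x : G)⁻¹ * ((x : G) * ((x : G)⁻¹ * y * x * (y : G)⁻¹)) * ((x : G)⁻¹ * y * x * (y : G)⁻¹) := by group
      _ = (x : G)⁻¹ * (((x : G)⁻¹ * y * x * (y : G)⁻¹) * x) * ((x : G)⁻¹ * y * x * (y : G)⁻¹) := by rw [hcx]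
      _ = (x : G)⁻¹ * (x : G)⁻¹ * (y * ((x : G) * x) * (y : G)⁻¹) := by group
      _ = (x : G)⁻¹ * (x : G)⁻¹ * ((x : G) * x * y * (y : G)⁻¹) := by rw [hx2]
      _ = 1 := by group
  letI myInst_cgW : CommGroup (W ⧸ EW) := { (inferInstance : Group (W ⧸ EW)) with
    mul_comm := fun x y => by
      obtain ⟨x, rfl⟩ := QuotientGroup.mk'_surjective EW x
      obtain ⟨y, rfl⟩ := QuotientGroup.mk'_surjective EW y
      rw [← map_mul, ← map_mul, QuotientGroup.mk'_apply, QuotientGroup.mk'_apply, QuotientGroup.eq]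
      show (((x * y)⁻¹ * (y * x) : W) : G) ∈ E
      have h := hdl x y⁻¹
      have := (hinv _ h).2 _ (hWF _ y.2)
      push_cast
      rw [show ((x : G) * y)⁻¹ * ((y : G) * x) = (y : G)⁻¹ * ((x : G)⁻¹ * y * x * (y : G)⁻¹) * y by group]
      have h2 := hdl x y
      rw [mul_assoc, (hinv _ h2).2 _ (hWF _ y.2), inv_mul_cancel_left]
      exact h2 }
  letI myInst_cgE : CommGroup E := { (inferInstance : Group E) with
    mul_comm := fun x y => Subtype.ext ((hinv x x.2).2 y (hinv y y.2).1) }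
  let sqE : W → E := fun w => ⟨(w : G) * w, hsq w⟩
  have hsqwd : ∀ w : W, ∀ e ∈ EW, sqE (w * e) = sqE w := fun w e he => Subtype.ext (by
    show (w : G) * e * ((w : G) * e) = (w : G) * w
    have := (hinv (e : G) he).2 ((w : G) * e) (mul_mem (hWF _ w.2) (hinv (e : G) he).1)
    calc (w : G) * e * ((w : G) * e) = (w : G) * ((e : G) * ((w : G) * e)) := by group
      _ = (w : G) * ((w : G) * e * e) := by rw [this]
      _ = (w : G) * w * ((e : G) * e) := by group
      _ = _ := by rw [show (e : G) * e = 1 from he, mul_one])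
  let q : Additive (W ⧸ EW) → Additive E := fun v => Additive.ofMul
    (Quotient.liftOn' (Additive.toMul v) sqE fun w w' h => by
      rw [QuotientGroup.leftRel_apply] at h
      rw [← hsqwd w _ h, mul_inv_cancel_left])
  have hV : ∀ v : Additive (W ⧸ EW), v + v = 0 := fun v => by
    obtain ⟨w, hw⟩ := QuotientGroup.mk'_surjective EW (Additive.toMul v)
    apply Additive.toMul.injective
    rw [toMul_add, toMul_zero, ← hw, ← map_mul]
    exact (QuotientGroup.eq_one_iff _).mpr (hsq w)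
  have hE : ∀ e : Additive E, e + e = 0 := fun e => Additive.toMul.injective (Subtype.ext (Additive.toMul e).2)
  have hq0 : ∀ v, q v = 0 → v = 0 := fun v hv => by
    obtain ⟨w, hw⟩ := QuotientGroup.mk'_surjective EW (Additive.toMul v)
    apply Additive.toMul.injective
    rw [toMul_zero, ← hw]
    refine (QuotientGroup.eq_one_iff _).mpr ?_
    have h := congrArg Additive.toMul hv
    simp only [q, toMul_ofMul, toMul_zero, ← hw] at h
    exact congrArg Subtype.val h
  have hpol : ∀ u v : W, pol q (Additive.ofMul (u : W ⧸ EW)) (Additive.ofMul (v : W ⧸ EW)) =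
      Additive.ofMul ⟨_, hdl u v⟩ := fun u v => by
    simp only [pol, q, ← ofMul_mul, ← ofMul_div, toMul_ofMul, ← QuotientGroup.mk_mul]
    show Additive.ofMul (sqE (u * v) / sqE u / sqE v) = _
    congr 1
    rw [div_div, div_eq_iff_eq_mul, Subtype.ext_iff]
    show (u : G) * v * ((u : G) * v) = (u : G)⁻¹ * v * u * (v : G)⁻¹ * ((u : G) * u * ((v : G) * v))
    have h := (hinv _ (hdl u v)).2 _ (mul_mem (hWF _ u.2) (hWF _ u.2))
    calc (u : G) * v * ((u : G) * v) = (u : G) * u * ((u : G)⁻¹ * v * u * (v : G)⁻¹) * ((v : G) * v) := by group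
      _ = (u : G)⁻¹ * v * u * (v : G)⁻¹ * ((u : G) * u) * ((v : G) * v) := by rw [← h]
      _ = _ := by group
  have hB : ∀ u v w, pol q (u + v) w = pol q u w + pol q v w := by
    intro u v w
    obtain ⟨u', hu⟩ := QuotientGroup.mk'_surjective EW (Additive.toMul u)
    obtain rfl : u = Additive.ofMul (QuotientGroup.mk' EW u') := by rw [hu]; rfl
    obtain ⟨v', hv⟩ := QuotientGroup.mk'_surjective EW (Additive.toMul v)
    obtain rfl : v = Additive.ofMul (QuotientGroup.mk' EW v') := by rw [hv]; rfl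
    obtain ⟨w', hw⟩ := QuotientGroup.mk'_surjective EW (Additive.toMul w)
    obtain rfl : w = Additive.ofMul (QuotientGroup.mk' EW w') := by rw [hw]; rfl
    rename' u' => u, v' => v, w' => w
    rw [← ofMul_mul, ← map_mul]
    simp only [QuotientGroup.mk'_apply, hpol, ← ofMul_mul]
    congr 1
    apply Subtype.ext
    show ((u : G) * v)⁻¹ * w * ((u : G) * v) * (w : G)⁻¹ =
      (u : G)⁻¹ * w * u * (w : G)⁻¹ * ((v : G)⁻¹ * w * v * (w : G)⁻¹)
    have h := (hinv _ (hdl u w)).2 (v : G)⁻¹ (inv_mem (hWF _ v.2))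
    calc ((u : G) * v)⁻¹ * w * ((u : G) * v) * (w : G)⁻¹
        = (v : G)⁻¹ * ((u : G)⁻¹ * w * u * (w : G)⁻¹) * ((w : G) * v * (w : G)⁻¹) := by group
      _ = ((u : G)⁻¹ * w * u * (w : G)⁻¹) * (v : G)⁻¹ * ((w : G) * v * (w : G)⁻¹) := by rw [h]
      _ = _ := by group
  -- the action
  let cj : G → W →* W := fun g =>
    { toFun := fun w => ⟨g * w * g⁻¹, hWn g w w.2⟩
      map_one' := Subtype.ext (by simp)
      map_mul' := fun w w' => Subtype.ext (by push_cast; group) }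
  have hcjE : ∀ g, EW ≤ EW.comap (cj g) := fun g e he => by
    show g * (e : G) * g⁻¹ * (g * (e : G) * g⁻¹) = 1
    rw [show g * (e : G) * g⁻¹ * (g * (e : G) * g⁻¹) = g * ((e : G) * e) * g⁻¹ by group,
      show (e : G) * e = 1 from he]
    group
  let ρ0 : G →* AddMonoid.End (Additive (W ⧸ EW)) :=
    { toFun := fun g => MonoidHom.toAdditive (QuotientGroup.map EW EW (cj g) (hcjE g))
      map_one' := AddMonoidHom.ext fun v => by
        obtain ⟨w, hw⟩ := QuotientGroup.mk'_surjective EW (Additive.toMul v)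
        obtain rfl : v = Additive.ofMul (QuotientGroup.mk' EW w) := by rw [hw]; rfl
        show Additive.ofMul (QuotientGroup.mk' EW (cj 1 w)) = _
        rw [show cj 1 w = w from Subtype.ext (by show 1 * (w : G) * 1⁻¹ = w; group)]
        rfl
      map_mul' := fun g g' => AddMonoidHom.ext fun v => by
        obtain ⟨w, hw⟩ := QuotientGroup.mk'_surjective EW (Additive.toMul v)
        obtain rfl : v = Additive.ofMul (QuotientGroup.mk' EW w) := by rw [hw]; rfl
        show Additive.ofMul (QuotientGroup.mk' EW (cj (g * g') w)) =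
          Additive.ofMul (QuotientGroup.mk' EW (cj g (cj g' w)))
        rw [show cj (g * g') w = cj g (cj g' w) from Subtype.ext (by
          show g * g' * (w : G) * (g * g')⁻¹ = g * (g' * (w : G) * g'⁻¹) * g⁻¹
          group)] }
  have hρ0 : ∀ (g : G) (w : W), ρ0 g (Additive.ofMul (QuotientGroup.mk' EW w)) =
      Additive.ofMul (QuotientGroup.mk' EW (cj g w)) := fun g w => rfl
  have hFker : F ≤ ρ0.ker := fun f hf => AddMonoidHom.ext fun v => by
    obtain ⟨w, hw⟩ := QuotientGroup.mk'_surjective EW (Additive.toMul v)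
    obtain rfl : v = Additive.ofMul (QuotientGroup.mk' EW w) := by rw [hw]; rfl
    refine (hρ0 f w).trans ?_
    show _ = Additive.ofMul (QuotientGroup.mk' EW w)
    refine congrArg _ (QuotientGroup.eq.mpr ?_)
    obtain ⟨⟨w', hw', hww⟩, -⟩ := w.2
    set c : F := w'⁻¹ * ⟨f, hf⟩ * w' * (⟨f, hf⟩ : F)⁻¹ with hc
    have hcA : c ∈ A := by
      have := hHcomm _ (inv_mem hw') ⟨f, hf⟩
      rwa [commutatorElement_def, inv_inv] at this
    have hcw : (c : G) * w = (w : G) * c := by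
      rw [← hww]
      exact congrArg Subtype.val (Subgroup.mem_centralizer_iff.mp (hHA hw') _ hcA)
    show ((f * w * f⁻¹)⁻¹ * (w : G)) * ((f * w * f⁻¹)⁻¹ * (w : G)) = 1
    have e : (c : G) = (w : G)⁻¹ * f * w * f⁻¹ := by rw [hc, ← hww]; simp
    have h2 := (hinv _ (hsq w)).2 f hf
    have h3 : (c : G) * c = 1 := by
      calc (c : G) * c = (w : G)⁻¹ * ((c : G) * w) * ((w : G)⁻¹ * f * w * f⁻¹) := by
            rw [hcw, ← e]; group
        _ = (w : G)⁻¹ * (w : G)⁻¹ * (f * ((w : G) * w) * f⁻¹) := by rw [e]; group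
        _ = (w : G)⁻¹ * (w : G)⁻¹ * ((w : G) * w * f * f⁻¹) := by rw [← h2]
        _ = 1 := by group
    rw [show (f * w * f⁻¹)⁻¹ * (w : G) = ((w : G)⁻¹ * f * w * f⁻¹)⁻¹ by group, ← e, ← mul_inv_rev, h3, inv_one]
  let ρ : G ⧸ F →* AddMonoid.End (Additive (W ⧸ EW)) := QuotientGroup.lift F ρ0 hFker
  set π := QuotientGroup.mk' F with hπ
  set K := centralizer (E : Set G) with hK
  haveI hKn : K.Normal := ⟨fun c hc g => Subgroup.mem_centralizer_iff.mpr fun e he => by
    have he' : g⁻¹ * e * g * (g⁻¹ * e * g) = 1 := by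
      rw [show g⁻¹ * e * g * (g⁻¹ * e * g) = g⁻¹ * (e * e) * g by group, show e * e = 1 from he]
      group
    have h := Subgroup.mem_centralizer_iff.mp hc _ he'
    calc e * (g * c * g⁻¹) = g * ((g⁻¹ * e * g) * c) * g⁻¹ := by group
      _ = g * (c * (g⁻¹ * e * g)) * g⁻¹ := by rw [h]
      _ = g * c * g⁻¹ * e := by group⟩
  set Kb := K.map π with hKb
  haveI hKbn : Kb.Normal := Subgroup.Normal.map hKn π (QuotientGroup.mk'_surjective F)
  have hKq : ∀ g ∈ Kb, ∀ v, q (ρ g v) = q v := by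
    rintro _ ⟨g, hg, rfl⟩ v
    obtain ⟨w, hw⟩ := QuotientGroup.mk'_surjective EW (Additive.toMul v)
    obtain rfl : v = Additive.ofMul (QuotientGroup.mk' EW w) := by rw [hw]; rfl
    show Additive.ofMul (sqE (cj g w)) = Additive.ofMul (sqE w)
    refine congrArg _ (Subtype.ext ?_)
    show g * (w : G) * g⁻¹ * (g * (w : G) * g⁻¹) = (w : G) * w
    rw [show g * (w : G) * g⁻¹ * (g * (w : G) * g⁻¹) = g * ((w : G) * w) * g⁻¹ by group,
      ← Subgroup.mem_centralizer_iff.mp hg _ (hsq w), mul_inv_cancel_right]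
  -- odd elements acting trivially
  have hstab : ∀ (g x c : G), Odd (orderOf g) → c * c * (c * c) = 1 ∨ (∃ i : ℕ, c ^ 2 ^ i = 1) →
      g * x * g⁻¹ = x * c → g * c * g⁻¹ = c → c = 1 := by
    intro g x c hg hc h1 h2
    have hi : ∀ i : ℕ, g ^ i * x * (g ^ i)⁻¹ = x * c ^ i := by
      intro i
      induction i with
      | zero => simp
      | succ i ih =>
        calc g ^ (i + 1) * x * (g ^ (i + 1))⁻¹ = g * (g ^ i * x * (g ^ i)⁻¹) * g⁻¹ := by rw [pow_succ']; group
          _ = g * x * g⁻¹ * (g * c ^ i * g⁻¹) := by rw [ih]; group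
          _ = x * c * c ^ i := by rw [h1, ← conj_pow, h2]
          _ = x * c ^ (i + 1) := by rw [pow_succ', mul_assoc]
    have h := hi (orderOf g)
    rw [pow_orderOf_eq_one, one_mul, inv_one, mul_one, left_eq_mul] at h
    obtain ⟨i, hi2⟩ : ∃ i : ℕ, c ^ 2 ^ i = 1 := hc.elim (fun h => ⟨2, by
      rw [show (2 : ℕ) ^ 2 = 2 + 2 from rfl, pow_add, pow_two]; exact h⟩) id
    exact orderOf_eq_one_iff.mp (Nat.eq_one_of_dvd_coprimes
      ((Nat.coprime_two_left.mpr hg).pow_left i) (orderOf_dvd_of_pow_eq_one hi2) (orderOf_dvd_of_pow_eq_one h))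
  have hfaith : ∀ x ∈ Kb, Odd (orderOf x) → (∀ v, ρ x v = v) → x = 1 := by
    rintro _ ⟨g₀, hg₀, rfl⟩ hodd htriv
    obtain ⟨i, m, hm, hord⟩ := Nat.exists_eq_two_pow_mul_odd (orderOf_pos g₀).ne'
    set g := g₀ ^ 2 ^ i with hg
    have hgo : Odd (orderOf g) := odd_orderOf_pow hm hord
    have hgK : g ∈ K := pow_mem hg₀ _
    have hgtriv : ∀ v, ρ0 g v = v := fun v => by
      rw [show ρ0 g = ρ (π g) from rfl, hg, map_pow π, map_pow ρ]
      generalize 2 ^ i = n
      induction n with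
      | zero => rfl
      | succ n ih => rw [pow_succ']; show ρ (π g₀) ((ρ (π g₀) ^ n) v) = v; rw [ih, htriv]
    have hgE : ∀ e : G, e * e = 1 → g * e * g⁻¹ = e := fun e he => by
      rw [← Subgroup.mem_centralizer_iff.mp hgK e he, mul_inv_cancel_right]
    have hgW : ∀ w : W, g * (w : G) * g⁻¹ = w := fun w => by
      have h := congrArg Additive.toMul (hgtriv (Additive.ofMul (QuotientGroup.mk' EW w)))
      rw [hρ0, toMul_ofMul, toMul_ofMul] at h
      have he : ((w : G)⁻¹ * (g * w * g⁻¹)) * ((w : G)⁻¹ * (g * w * g⁻¹)) = 1 := QuotientGroup.eq.mp h.symm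
      have h1 := hstab g w ((w : G)⁻¹ * (g * w * g⁻¹)) hgo (Or.inl (by rw [he, one_mul])) (by group) (hgE _ he)
      exact (inv_mul_eq_one.mp h1).symm
    have hgC : ∀ i : ℕ, ∀ x ∈ C, x ^ 2 ^ i = 1 → g * x * g⁻¹ = x := by
      intro i
      induction i with
      | zero => intro x hx h; rw [pow_zero, pow_one] at h; rw [h]; group
      | succ i ih =>
        intro x hx h
        have hxx := ih (x * x) (mul_mem hx hx) (by rw [← pow_two, ← pow_mul, ← pow_succ', h])
        obtain ⟨c, rfl'⟩ : ∃ c, g * x * g⁻¹ = x * c := ⟨x⁻¹ * (g * x * g⁻¹), by group⟩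
        have hcC : c ∈ C := by
          have := mul_mem (inv_mem hx) (hCn.conj_mem x hx g)
          rwa [rfl', inv_mul_cancel_left] at this
        obtain ⟨x', hx', hxe⟩ := hx
        obtain ⟨c', hc', hce⟩ := hcC
        set d : F := c'⁻¹ * x'⁻¹ * c' * x' with hd
        have hdA : d ∈ A := by
          have := hHcomm _ (inv_mem hc') x'⁻¹
          rwa [commutatorElement_def, inv_inv, inv_inv] at this
        have hcen : ∀ w ∈ Hc, ∀ y ∈ A, w * y = y * w := fun w hw y hy =>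
          (Subgroup.mem_centralizer_iff.mp (hHA hw) y hy).symm
        have hdd : d * d = 1 := by
          calc d * d = c'⁻¹ * d * (x'⁻¹ * c' * x') := by
                rw [hcen _ (inv_mem hc') d hdA, hd]; group
            _ = c'⁻¹ * (c'⁻¹ * (x'⁻¹ * (c' * c') * x')) := by rw [hd]; group
            _ = c'⁻¹ * (c'⁻¹ * (c' * c')) := by
                rw [hcen x'⁻¹ (inv_mem hx') (c' * c') (by have := hHsq c' hc'; rwa [pow_two] at this),
                  inv_mul_cancel_right]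
            _ = 1 := by group
        have hW : c * c * (c * c) = 1 := by
          have e : x * x = x * c * (x * c) := by
            rw [← rfl', show g * x * g⁻¹ * (g * x * g⁻¹) = g * (x * x) * g⁻¹ by group, hxx]
          have e3 : x⁻¹ * c * x = c⁻¹ := by
            calc x⁻¹ * c * x = (x * x)⁻¹ * (x * c * (x * c)) * c⁻¹ := by group
              _ = c⁻¹ := by rw [← e]; group
          have e2 : (d : G) = c⁻¹ * c⁻¹ := by
            rw [show (d : G) = c⁻¹ * (x⁻¹ * c * x) by rw [← hxe, ← hce, hd]; simp [mul_assoc], e3]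
          rw [show c * c * (c * c) = ((d : G) * d)⁻¹ by rw [e2]; simp [mul_assoc], ← Subgroup.coe_mul, hdd]
          simp
        have h1 := hstab g x c hgo (Or.inl hW) rfl' (hgW ⟨c, ⟨c', hc', hce⟩, hW⟩)
        rw [rfl', h1, mul_one]
    have hgC' : ∀ x ∈ C, g * x * g⁻¹ = x := fun x hx => by
      obtain ⟨i, hi⟩ := hFp ⟨x, hCle hx⟩
      exact hgC i x hx (congrArg Subtype.val hi)
    have hgF : g ∈ centralizer (F : Set G) := Subgroup.mem_centralizer_iff.mpr fun x hx => by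
      set d := g * x * g⁻¹ * x⁻¹ with hd
      have hdF : d ∈ F := mul_mem (hFn.conj_mem x hx g) (inv_mem hx)
      have hdC : d ∈ C := by
        refine ⟨⟨d, hdF⟩, hHself (Subgroup.mem_centralizer_iff.mpr fun y hy => Subtype.ext ?_), rfl⟩
        have hyC : (y : G) ∈ C := ⟨y, hy, rfl⟩
        have h1 := hgC' _ (hCn.conj_mem _ hyC x⁻¹)
        have h2 := hgC' _ hyC
        show (y : G) * d = d * (y : G)
        calc (y : G) * d = g * x * (x⁻¹ * (g⁻¹ * (y : G) * g) * x⁻¹⁻¹) * g⁻¹ * x⁻¹ := by rw [hd]; group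
          _ = g * x * (x⁻¹ * (y : G) * x⁻¹⁻¹) * g⁻¹ * x⁻¹ := by
              rw [show g⁻¹ * (y : G) * g = y by
                conv_lhs => rw [← h2]
                group]
          _ = g * x * g⁻¹ * (g * (x⁻¹ * (y : G) * x⁻¹⁻¹) * g⁻¹) * x⁻¹ := by group
          _ = d * (y : G) := by rw [h1, hd]; group
      obtain ⟨i, hi⟩ := hFp ⟨d, hdF⟩
      have h1 : x⁻¹ * d * x = 1 := hstab g x (x⁻¹ * d * x) hgo
        (Or.inr ⟨i, by
          rw [show x⁻¹ * d * x = x⁻¹ * d * x⁻¹⁻¹ by group, conj_pow, show d ^ 2 ^ i = 1 from congrArg Subtype.val hi]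
          group⟩)
        (by rw [hd]; group)
        (hgC' _ (by have := hCn.conj_mem d hdC x⁻¹; rwa [inv_inv] at this))
      have h2 : d = 1 := by
        have := congrArg (fun z => x * z * x⁻¹) h1
        simpa [mul_assoc] using this
      rw [hd, mul_inv_eq_one, mul_inv_eq_iff_eq_mul] at h2
      exact h2.symm
    have hg1 : g = 1 := by
      obtain ⟨j, hj⟩ := hFp ⟨g, hCF hgF⟩
      exact orderOf_eq_one_iff.mp (Nat.eq_one_of_dvd_coprimes ((Nat.coprime_two_left.mpr hgo).pow_left j)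
        (orderOf_dvd_of_pow_eq_one (congrArg Subtype.val hj)) dvd_rfl)
    have h : π g₀ ^ 2 ^ i = 1 := by rw [← map_pow, ← hg, hg1, map_one]
    exact orderOf_eq_one_iff.mp (Nat.eq_one_of_dvd_coprimes ((Nat.coprime_two_left.mpr hodd).pow_left i)
      (orderOf_dvd_of_pow_eq_one h) dvd_rfl)
  -- the elementary abelian subgroup
  set Sb := (S : Subgroup G).map π with hSb
  have hSb2 : IsPGroup 2 Sb := S.2.map π
  have hSbK : Sb ≤ Kb := Subgroup.map_mono fun s hs =>
    Subgroup.mem_centralizer_iff.mpr fun e he => (hSK s hs e he).symm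
  let P0 : Subgroup (G ⧸ F) :=
    { carrier := {z | z ∈ Sb ∧ (∀ s ∈ Sb, Commute s z) ∧ z * z = 1}
      one_mem' := ⟨one_mem Sb, fun s _ => Commute.one_right s, one_mul 1⟩
      mul_mem' := fun {x y} hx hy => ⟨mul_mem hx.1 hy.1, fun s hs => (hx.2.1 s hs).mul_right (hy.2.1 s hs), by
        rw [Commute.mul_mul_mul_comm (hx.2.1 y hy.1), hx.2.2, hy.2.2, one_mul]⟩
      inv_mem' := fun {x} hx => ⟨inv_mem hx.1, fun s hs => (hx.2.1 s hs).inv_right, by
        rw [← mul_inv_rev, hx.2.2, inv_one]⟩ }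
  obtain ⟨t₀, ht₀, ht₀1⟩ : ∃ t ∈ P0, t ≠ 1 := by
    have hne : Sb ≠ ⊥ := fun e => hSF (by
      rw [hSb, Subgroup.map_eq_bot_iff, hπ, QuotientGroup.ker_mk'] at e
      exact e)
    haveI : Nontrivial Sb := (Subgroup.nontrivial_iff_ne_bot _).mpr hne
    haveI := hSb2.center_nontrivial
    obtain ⟨n, hn, hcard⟩ := (hSb2.to_subgroup (Subgroup.center Sb)).nontrivial_iff_card.mp inferInstance
    obtain ⟨z, hz⟩ := exists_prime_orderOf_dvd_card' 2 (hcard ▸ dvd_pow_self 2 (by omega) : 2 ∣ Nat.card (Subgroup.center Sb))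
    refine ⟨((z : Sb) : G ⧸ F), ⟨(z : Sb).2, fun s hs => congrArg Subtype.val (Subgroup.mem_center_iff.mp z.2 ⟨s, hs⟩), ?_⟩,
      fun e => ?_⟩
    · have h : z * z = 1 := by rw [← pow_two, ← hz, pow_orderOf_eq_one]
      exact congrArg (fun w : Subgroup.center Sb => ((w : Sb) : G ⧸ F)) h
    · rw [show z = 1 from Subtype.ext (Subtype.ext e), orderOf_one] at hz
      exact absurd hz (by decide)
  have hP0 : Cfsg.IsElementaryAbelian 2 P0 :=
    ⟨⟨⟨fun x y => Subtype.ext (y.2.2.1 _ x.2.1).eq⟩⟩, fun x hx => by rw [pow_two]; exact hx.2.2⟩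
  have hSba : ∀ s ∈ Sb, π a * s * (π a)⁻¹ ∈ Sb := by
    rintro _ ⟨s, hs, rfl⟩
    exact ⟨_, haS s hs, by simp⟩
  have hSba' : ∀ s ∈ Sb, (π a)⁻¹ * s * π a ∈ Sb := by
    intro s hs
    have hinj : Function.Injective (fun s : Sb => (⟨_, hSba _ s.2⟩ : Sb)) :=
      fun x y e => Subtype.ext (mul_left_cancel (mul_right_cancel (congrArg Subtype.val e)))
    obtain ⟨t, ht⟩ := (Finite.injective_iff_bijective.mp hinj).2 ⟨s, hs⟩
    have e : π a * t * (π a)⁻¹ = s := congrArg Subtype.val ht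
    rw [← e, show (π a)⁻¹ * (π a * (t : G ⧸ F) * (π a)⁻¹) * π a = t by group]
    exact t.2
  have haP : ∀ t ∈ P0, π a * t * (π a)⁻¹ ∈ P0 := fun t ht => ⟨hSba t ht.1, fun s hs => by
    show s * (π a * t * (π a)⁻¹) = π a * t * (π a)⁻¹ * s
    calc s * (π a * t * (π a)⁻¹) = π a * (((π a)⁻¹ * s * π a) * t) * (π a)⁻¹ := by group
      _ = π a * (t * ((π a)⁻¹ * s * π a)) * (π a)⁻¹ := by rw [(ht.2.1 _ (hSba' s hs)).eq]
      _ = _ := by group, by
    rw [show π a * t * (π a)⁻¹ * (π a * t * (π a)⁻¹) = π a * (t * t) * (π a)⁻¹ by group, ht.2.2]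
    group⟩
  have hfixP : ∀ t ∈ P0, π a * t * (π a)⁻¹ = t → t = 1 := by
    intro t ht h
    obtain ⟨s, hs, rfl⟩ := ht.1
    have hsa : s⁻¹ * (a * s * a⁻¹) ∈ F := QuotientGroup.eq.mp (show π s = π (a * s * a⁻¹) by simp [h])
    obtain ⟨f, hf, hfix⟩ := exists_fixed_in_coset_two hr hak F hFp (fun f hf => hFn.conj_mem f hf a) hsa
    have hsf : s * f ∈ (S : Subgroup G) :=
      mul_mem hs ((Core.pCore_le_sylow S) hf)
    obtain ⟨i, hi⟩ := S.2 ⟨_, hsf⟩
    have h1 := hfree2 _ ⟨i, congrArg Subtype.val hi⟩ hfix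
    exact (QuotientGroup.eq_one_iff _).mpr (by rw [eq_inv_of_mul_eq_one_left h1]; exact inv_mem hf)
  have hfixV : ∀ v, ρ (π a) v = v → v = 0 := by
    intro v hv
    obtain ⟨w, hw⟩ := QuotientGroup.mk'_surjective EW (Additive.toMul v)
    obtain rfl : v = Additive.ofMul (QuotientGroup.mk' EW w) := by rw [hw]; rfl
    change ρ0 a _ = _ at hv
    rw [hρ0] at hv
    have h := Additive.ofMul.injective hv
    have hwa' : w⁻¹ * cj a w ∈ EW := QuotientGroup.eq.mp h.symm
    have hwa : (w : G)⁻¹ * (a * w * a⁻¹) ∈ E := hwa'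
    obtain ⟨e, he, hfix⟩ := exists_fixed_in_coset_two hr hak E
      (fun e => ⟨1, Subtype.ext (by rw [pow_one, SubmonoidClass.coe_pow, pow_two]; exact e.2)⟩)
      (fun e he => by
        show a * e * a⁻¹ * (a * e * a⁻¹) = 1
        rw [show a * e * a⁻¹ * (a * e * a⁻¹) = a * (e * e) * a⁻¹ by group, show e * e = 1 from he]
        group) hwa
    obtain ⟨i, hi⟩ := hFp ⟨_, mul_mem (hWF _ w.2) (hinv e he).1⟩
    have h1 := hfree2 _ ⟨i, congrArg Subtype.val hi⟩ hfix
    rw [show QuotientGroup.mk' EW w = 1 from (QuotientGroup.eq_one_iff _).mpr (by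
      show (w : G) ∈ E
      rw [eq_inv_of_mul_eq_one_left h1]; exact inv_mem he)]
    rfl
  -- the odd subgroup moved by the involution
  have hK2 : Cfsg.pCore 2 Kb = ⊥ := by
    rw [← Subgroup.map_eq_bot_iff_of_injective _ Kb.subtype_injective, ← le_bot_iff,
      ← Core.pCore_quotient_pCore 2 G]
    exact Core.le_pCore inferInstance ((Core.isPGroup_pCore 2 Kb).map _)
  obtain ⟨q', hq', d₀, hd₀, hmv⟩ : ∃ q' : ℕ, q'.Prime ∧ ∃ d ∈ Cfsg.pCore q' Kb,
      t₀ * (d : G ⧸ F) * t₀⁻¹ ≠ d := by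
    by_contra hc
    push Not at hc
    have ht : (⟨t₀, hSbK ht₀.1⟩ : Kb) ∈ centralizer ((Cfsg.fittingSubgroup Kb : Subgroup Kb) : Set Kb) := by
      have hle : Cfsg.fittingSubgroup Kb ≤ centralizer ({(⟨t₀, hSbK ht₀.1⟩ : Kb)} : Set Kb) := by
        rw [Core.fittingSubgroup_eq_iSup]
        exact iSup_le fun q d hd => Subgroup.mem_centralizer_singleton_iff.mpr
          (Subtype.ext (mul_inv_eq_iff_eq_mul.mp (hc q q.2 d hd)).symm)
      exact Subgroup.mem_centralizer_iff.mpr fun d hd => Subgroup.mem_centralizer_singleton_iff.mp (hle hd)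
    have h2 := Core.centralizer_fittingSubgroup_le ht
    rw [Core.fittingSubgroup_eq_iSup] at h2
    have h3 := Core.iSup_pCore_le_sup 2 Kb h2
    rw [hK2, bot_sup_eq] at h3
    have hdvd : 2 ∣ Nat.card (Cfsg.pPrimeCore 2 Kb) := by
      have ho : orderOf (⟨⟨t₀, hSbK ht₀.1⟩, h3⟩ : Cfsg.pPrimeCore 2 Kb) = 2 :=
        orderOf_eq_prime (by rw [pow_two]; exact Subtype.ext (Subtype.ext ht₀.2.2))
          fun e => ht₀1 (congrArg (fun z : Cfsg.pPrimeCore 2 Kb => ((z : Kb) : G ⧸ F)) e)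
      have h4 := orderOf_dvd_natCard (⟨⟨t₀, hSbK ht₀.1⟩, h3⟩ : Cfsg.pPrimeCore 2 Kb)
      rwa [ho] at h4
    exact Core.not_dvd_card_pPrimeCore 2 Kb hdvd
  haveI := Fact.mk hq'
  have hq2 : q' ≠ 2 := fun e => by
    subst e
    rw [hK2, Subgroup.mem_bot] at hd₀
    apply hmv
    rw [hd₀]; simp
  set R : Subgroup (G ⧸ F) := (Cfsg.pCore q' Kb).map Kb.subtype with hR
  haveI hRn : R.Normal := by rw [hR]; infer_instance
  have hRq : IsPGroup q' R := (Core.isPGroup_pCore q' Kb).map _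
  obtain ⟨Hd, A', hHdc, -, hHA', hHself', -, hHcomm'⟩ := OddLocal.RankTwo.exists_critical hRq
  haveI := hHdc
  set D : Subgroup (G ⧸ F) := Hd.map R.subtype with hD
  haveI hDn : D.Normal := by rw [hD]; infer_instance
  have hDodd : Odd (Nat.card D) := by
    obtain ⟨n, hn⟩ := IsPGroup.iff_card.mp ((hRq.to_subgroup Hd).map R.subtype)
    rw [hn]
    exact (hq'.odd_of_ne_two hq2).pow
  obtain ⟨d₁, hd₁, hmv₁⟩ : ∃ d ∈ D, t₀ * d * t₀⁻¹ ≠ d := by
    by_contra hc
    push Not at hc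
    apply hmv
    set x : G ⧸ F := (d₀ : G ⧸ F) with hx
    have hxR : x ∈ R := ⟨d₀, hd₀, rfl⟩
    set c := t₀ * x * t₀⁻¹ * x⁻¹ with hcdef
    have hcR : c ∈ R := mul_mem (hRn.conj_mem x hxR t₀) (inv_mem hxR)
    have hcD : c ∈ D := by
      refine ⟨⟨c, hcR⟩, hHself' (Subgroup.mem_centralizer_iff.mpr fun y hy => Subtype.ext ?_), rfl⟩
      have hyD : (y : G ⧸ F) ∈ D := ⟨y, hy, rfl⟩
      have h1 := hc _ (hDn.conj_mem _ hyD x⁻¹)
      have h2 := hc _ hyD
      show (y : G ⧸ F) * c = c * (y : G ⧸ F)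
      have ht : t₀⁻¹ = t₀ := inv_eq_of_mul_eq_one_right ht₀.2.2
      calc (y : G ⧸ F) * c = (t₀ * (y : G ⧸ F) * t₀⁻¹) * c := by rw [h2]
        _ = t₀ * x * (x⁻¹ * (y : G ⧸ F) * x⁻¹⁻¹) * t₀⁻¹ * x⁻¹ := by rw [hcdef]; group
        _ = t₀ * x * t₀⁻¹ * (t₀ * (x⁻¹ * (y : G ⧸ F) * x⁻¹⁻¹) * t₀⁻¹) * x⁻¹ := by group
        _ = c * (y : G ⧸ F) := by rw [h1, hcdef]; group
    have hfixc := hc c hcD
    have hcc : c * c = 1 := by
      have ht : t₀⁻¹ = t₀ := inv_eq_of_mul_eq_one_right ht₀.2.2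
      calc c * c = (t₀ * c * t₀⁻¹) * c := by rw [hfixc]
        _ = (t₀ * t₀) * x * (t₀⁻¹ * x⁻¹ * t₀⁻¹) * (t₀ * x * t₀⁻¹ * x⁻¹) := by rw [hcdef]; group
        _ = x * (t₀ * x⁻¹ * t₀⁻¹) * (t₀ * x * t₀⁻¹ * x⁻¹) := by rw [ht₀.2.2, one_mul, ht]
        _ = 1 := by group
    have hc1 : c = 1 := by
      obtain ⟨n, hn⟩ := hRq ⟨c, hcR⟩
      exact orderOf_eq_one_iff.mp (Nat.eq_one_of_dvd_coprimes
        (((Nat.coprime_primes Nat.prime_two hq').mpr hq2.symm).pow_right n)
        (orderOf_dvd_of_pow_eq_one (by rw [pow_two]; exact hcc))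
        (orderOf_dvd_of_pow_eq_one (congrArg Subtype.val hn)))
    exact mul_inv_eq_one.mp hc1
  refine false_of_fpf hV hE q hq0 hB ρ Kb hKq hfaith P0 D (fun t ht => hSbK ht.1)
    (Subgroup.map_le_iff_le_comap.mpr fun d _ => ?_) hP0 hDodd ?_
    (by rw [Subgroup.normalizer_eq_top D]; exact le_top) (π a) hr (k := k)
    (by rw [← map_pow, hak, map_one]) ?_ haP (fun d hd => hDn.conj_mem d hd _) hfixP hfixV ht₀ hd₁ hmv₁
  · obtain ⟨z, -, hz⟩ := d.2
    show (d : G ⧸ F) ∈ Kb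
    rw [← hz]; exact z.2
  · rintro _ ⟨x, hx, rfl⟩ _ ⟨y, hy, rfl⟩ _ ⟨z, hz, rfl⟩
    have hA : x * y * x⁻¹ * y⁻¹ ∈ A' := by
      have := hHcomm' x hx y
      rwa [commutatorElement_def] at this
    exact congrArg Subtype.val (Subgroup.mem_centralizer_iff.mp (hHA' hz) _ hA)
  · rw [← map_pow]
    exact ⟨_, Subgroup.mem_centralizer_iff.mpr fun e he => (har e he).symm, rfl⟩

end Cfsg.Agent.Transfer.AllConj
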