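import Cfsg.Agent.Transfer.AllConj.Core
import Cfsg.Agent.Components.Signalizer

/-! A fixed point free element cannot permute the components of a two-group acting anisotropically. -/

set_option autoImplicit false
set_option linter.unusedSectionVars false
set_option linter.style.haveILetI false

namespace Cfsg.Agent.Transfer.AllConj

theorem exists_fixed_of_period {α : Type*} [Finite α] {r : ℕ} [Fact r.Prime] (σ : Equiv.Perm α) {k : ℕ}
    (hσ : σ ^ r ^ k = 1) (h : ¬ r ∣ Nat.card α) : ∃ z, σ z = z := by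
  have hp : IsPGroup r (Subgroup.zpowers σ) := by
    obtain ⟨i, -, hi⟩ := (Nat.dvd_prime_pow (Fact.out : r.Prime)).mp (orderOf_dvd_of_pow_eq_one hσ)
    exact IsPGroup.of_card (n := i) (by rw [Nat.card_zpowers, hi])
  obtain ⟨z, hz⟩ := hp.nonempty_fixed_point_of_prime_not_dvd_card α h
  exact ⟨z, hz ⟨σ, Subgroup.mem_zpowers σ⟩⟩

theorem odd_nsmul {V : Type*} [AddCommGroup V] (hV : ∀ v : V, v + v = 0) {k : ℕ} (hk : Odd k) (u : V) :
    k • u = u := by
  obtain ⟨j, rfl⟩ := hk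
  rw [add_nsmul, one_nsmul, mul_nsmul, two_nsmul, hV, nsmul_zero, zero_add]

variable {Γ V E : Type*} [Group Γ] [Finite Γ] [AddCommGroup V] [Finite V] [AddCommGroup E]

theorem rho_mul {G W : Type*} [Group G] [AddCommGroup W] (ρ : G →* AddMonoid.End W) (g h : G) (v : W) :
    ρ (g * h) v = ρ g (ρ h v) := by rw [map_mul]; rfl

theorem rho_sum {G W ι : Type*} [Group G] [AddCommGroup W] (ρ : G →* AddMonoid.End W) (g : G) (s : Finset ι)
    (f : ι → W) : ρ g (∑ i ∈ s, f i) = ∑ i ∈ s, ρ g (f i) := map_sum (ρ g) f s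

set_option maxHeartbeats 1000000 in
/-- The combinatorial heart of the two-length argument. -/
theorem false_of_fpf (hV : ∀ v : V, v + v = 0) (hE : ∀ e : E, e + e = 0) (q : V → E)
    (hq0 : ∀ v, q v = 0 → v = 0) (hB : ∀ u v w, pol q (u + v) w = pol q u w + pol q v w)
    (ρ : Γ →* AddMonoid.End V) (Kb : Subgroup Γ) (hKq : ∀ k ∈ Kb, ∀ v, q (ρ k v) = q v)
    (hfaith : ∀ k ∈ Kb, Odd (orderOf k) → (∀ v, ρ k v = v) → k = 1)
    (P0 D : Subgroup Γ) (hP0K : P0 ≤ Kb) (hDK : D ≤ Kb) (hP0 : Cfsg.IsElementaryAbelian 2 P0)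
    (hDodd : Odd (Nat.card D)) (hDc : ∀ x ∈ D, ∀ y ∈ D, ∀ z ∈ D, x * y * x⁻¹ * y⁻¹ * z = z * (x * y * x⁻¹ * y⁻¹))
    (hn : P0 ≤ Subgroup.normalizer (D : Set Γ)) (a : Γ) {r : ℕ} [Fact r.Prime] (hr : r ≠ 2) {k : ℕ}
    (hak : a ^ r ^ k = 1) (har : a ^ r ∈ Kb) (haP : ∀ t ∈ P0, a * t * a⁻¹ ∈ P0)
    (haD : ∀ d ∈ D, a * d * a⁻¹ ∈ D) (hfixP : ∀ t ∈ P0, a * t * a⁻¹ = t → t = 1)
    (hfixV : ∀ v, ρ a v = v → v = 0) {t₀ d₀ : Γ} (ht₀ : t₀ ∈ P0) (hd₀ : d₀ ∈ D)
    (hmove : t₀ * d₀ * t₀⁻¹ ≠ d₀) : False := by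
  classical
  have hPsq : ∀ t ∈ P0, t * t = 1 := fun t ht => by
    have := hP0.2 t ht
    rwa [pow_two] at this
  have hPc : ∀ s ∈ P0, ∀ t ∈ P0, s * t = t * s := fun s hs t ht => by
    have hst := hPsq _ (mul_mem hs ht)
    calc s * t = (s * s) * (s * t * (s * t))⁻¹ * (s * t) * 1 := by rw [hPsq s hs, hst]; group
      _ = (s * s) * t⁻¹ * s⁻¹ := by group
      _ = t⁻¹ * s⁻¹ := by rw [hPsq s hs, one_mul]
      _ = t * s := by rw [inv_eq_of_mul_eq_one_right (hPsq t ht), inv_eq_of_mul_eq_one_right (hPsq s hs)]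
  have hDo : ∀ d ∈ D, Odd (orderOf d) := fun d hd => by
    refine Odd.of_dvd_nat hDodd ?_
    have := orderOf_dvd_natCard (⟨d, hd⟩ : D)
    rwa [Subgroup.orderOf_mk] at this
  have hrodd : Odd r := (Fact.out : r.Prime).odd_of_ne_two hr
  have haodd : Odd (orderOf a) := Odd.of_dvd_nat hrodd.pow (orderOf_dvd_of_pow_eq_one hak)
  have hcore : ∀ x ∈ Kb, ∀ b ∈ Kb, ∀ t ∈ Kb, Odd (orderOf x) → Odd (orderOf b) → Commute x b →
      t * x * t⁻¹ = x⁻¹ → Commute b t → ∀ v, (ρ x - 1) ((ρ b - 1) v) = 0 := by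
    intro x hx b hb t ht hxo hbo hxb hxt hbt
    refine core hV hE q hq0 hB (ρ x) (ρ b) (ρ t) hxo hbo ?_ ?_ ?_ ?_ ?_ (hKq x hx) (hKq b hb) (hKq t ht)
    · rw [← map_pow, pow_orderOf_eq_one, map_one]
    · rw [← map_pow, pow_orderOf_eq_one, map_one]
    · rw [← map_mul, ← map_mul, hxb.eq]
    · rw [← map_mul, ← map_mul, show x * t * x = x * (t * x * t⁻¹) * t by group, hxt]
      simp
    · rw [← map_mul, ← map_mul, hbt.eq]
  -- elements inverted by one involution commute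
  have hcomm : ∀ t ∈ P0, ∀ x ∈ D, ∀ y ∈ D, t * x * t⁻¹ = x⁻¹ → t * y * t⁻¹ = y⁻¹ → x * y = y * x := by
    intro t ht x hx y hy htx hty
    set z := x * y * x⁻¹ * y⁻¹ with hz
    have hzD : z ∈ D := mul_mem (mul_mem (mul_mem hx hy) (inv_mem hx)) (inv_mem hy)
    have hzc : ∀ w ∈ D, Commute z w := fun w hw => hDc x hx y hy w hw
    have htz : Commute z t := by
      have e : t * z * t⁻¹ = z := by
        calc t * z * t⁻¹ = (t * x * t⁻¹) * (t * y * t⁻¹) * (t * x * t⁻¹)⁻¹ * (t * y * t⁻¹)⁻¹ := by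
              rw [hz]; group
          _ = x⁻¹ * y⁻¹ * x * y := by rw [htx, hty, inv_inv, inv_inv]
          _ = (y * x)⁻¹ * (z * (y * x)) := by rw [hz]; group
          _ = z := by rw [(hzc (y * x) (mul_mem hy hx)).eq, inv_mul_cancel_left]
      exact (mul_inv_eq_iff_eq_mul.mp e).symm
    have hx0 := hcore x (hDK hx) z (hDK hzD) t (hP0K ht) (hDo x hx) (hDo z hzD) (hzc x hx).symm htx htz
    have hy0 := hcore y (hDK hy) z (hDK hzD) t (hP0K ht) (hDo y hy) (hDo z hzD) (hzc y hy).symm hty htz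
    suffices z = 1 by
      rw [hz, mul_inv_eq_one, mul_inv_eq_iff_eq_mul] at this
      exact this
    refine hfaith z (hDK hzD) (hDo z hzD) fun v => ?_
    refine pow_fix_odd (hDo z hzD) (by rw [← map_pow, pow_orderOf_eq_one, map_one]) ?_
    set u := ρ z v - v with hu
    have hxu : ρ x u = u := sub_eq_zero.mp (hx0 v)
    have hyu : ρ y u = u := sub_eq_zero.mp (hy0 v)
    have hxu' : ρ x⁻¹ u = u := by
      conv_lhs => rw [← hxu, ← rho_mul, inv_mul_cancel, map_one]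
      rfl
    have hyu' : ρ y⁻¹ u = u := by
      conv_lhs => rw [← hyu, ← rho_mul, inv_mul_cancel, map_one]
      rfl
    have hzu : ρ z u = u := by
      rw [hz, rho_mul, rho_mul, rho_mul, hyu', hxu', hyu, hxu]
    rw [hu, map_sub] at hzu
    calc ρ z (ρ z v) = (ρ z (ρ z v) - ρ z v) + ρ z v := by abel
      _ = (ρ z v + ρ z v) - v := by rw [hzu]; abel
      _ = v := by rw [hV, zero_sub]; exact neg_eq_of_add_eq_zero_left (hV v)
  -- hyperplanes
  have hX : ¬ 2 ∣ Nat.card D := fun h => (Nat.not_even_iff_odd.mpr hDodd) (even_iff_two_dvd.mpr h)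
  obtain ⟨B, hBP, hBrel, d, hd, hdB, hdt⟩ : ∃ B : Subgroup Γ, B ≤ P0 ∧ B.relIndex P0 ≤ 2 ∧
      ∃ d ∈ D, (∀ c ∈ B, c * d = d * c) ∧ ∃ t ∈ P0, t * d * t⁻¹ ≠ d := by
    by_contra hc
    push Not at hc
    apply hmove
    have hle : D ≤ Subgroup.centralizer (P0 : Set Γ) := by
      rw [Components.le_iSup_hyperplanes hP0 hX hn]
      refine iSup_le fun B => ?_
      rintro d ⟨hd, hdc⟩
      exact Subgroup.mem_centralizer_iff.mpr fun t ht => mul_inv_eq_iff_eq_mul.mp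
        (hc B B.2.1 B.2.2 d hd (fun c hc => Subgroup.mem_centralizer_iff.mp hdc c hc) t ht)
    exact mul_inv_eq_iff_eq_mul.mpr (Subgroup.mem_centralizer_iff.mp (hle hd₀) t₀ ht₀)
  obtain ⟨t₁, ht₁, ht₁d⟩ := hdt
  have hidx : ∀ C : Subgroup Γ, C ≤ P0 → C.relIndex P0 ≤ 2 → ∀ u ∈ P0, u ∉ C →
      C.relIndex P0 = 2 ∧ ∀ w ∈ P0, w ∉ C → u * w ∈ C := by
    intro C hC hrel u hu huC
    have h0 : C.relIndex P0 ≠ 0 := (C.subgroupOf P0).index_ne_zero_of_finite
    have h1 : C.relIndex P0 ≠ 1 := fun e => huC (Subgroup.relIndex_eq_one.mp e hu)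
    have h2 : (C.subgroupOf P0).index = 2 := by
      show C.relIndex P0 = 2
      omega
    refine ⟨h2, fun w hw hwC => ?_⟩
    exact Subgroup.mem_subgroupOf.mp ((Subgroup.mul_mem_iff_of_index_two h2 (a := ⟨u, hu⟩) (b := ⟨w, hw⟩)).mpr
      (iff_of_false huC hwC))
  have ht₁B : t₁ ∉ B := fun h => ht₁d (mul_inv_eq_iff_eq_mul.mpr (hdB t₁ h))
  obtain ⟨hB2, hBmul⟩ := hidx B hBP hBrel t₁ ht₁ ht₁B
  -- the inverted part attached to a hyperplane
  let inv' : Subgroup Γ → Γ → Prop := fun C x =>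
    x ∈ D ∧ (∀ c ∈ C, c * x * c⁻¹ = x) ∧ ∀ t ∈ P0, t ∉ C → t * x * t⁻¹ = x⁻¹
  let Q : Subgroup Γ :=
    { carrier := {x | inv' B x}
      one_mem' := ⟨one_mem D, fun c _ => by group, fun t _ _ => by group⟩
      mul_mem' := fun {x y} hx hy => ⟨mul_mem hx.1 hy.1,
        fun c hc => by rw [show c * (x * y) * c⁻¹ = c * x * c⁻¹ * (c * y * c⁻¹) by group, hx.2.1 c hc, hy.2.1 c hc],
        fun t ht htB => by
          rw [show t * (x * y) * t⁻¹ = t * x * t⁻¹ * (t * y * t⁻¹) by group, hx.2.2 t ht htB, hy.2.2 t ht htB,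
            hcomm t ht x hx.1 y hy.1 (hx.2.2 t ht htB) (hy.2.2 t ht htB), mul_inv_rev]⟩
      inv_mem' := fun {x} hx => ⟨inv_mem hx.1,
        fun c hc => by rw [show c * x⁻¹ * c⁻¹ = (c * x * c⁻¹)⁻¹ by group, hx.2.1 c hc],
        fun t ht htB => by rw [show t * x⁻¹ * t⁻¹ = (t * x * t⁻¹)⁻¹ by group, hx.2.2 t ht htB]⟩ }
  have hQab : ∀ x ∈ Q, ∀ y ∈ Q, x * y = y * x := fun x hx y hy =>
    hcomm t₁ ht₁ x hx.1 y hy.1 (hx.2.2 _ ht₁ ht₁B) (hy.2.2 _ ht₁ ht₁B)
  have hQ1 : d⁻¹ * (t₁ * d * t₁⁻¹) ∈ Q ∧ d⁻¹ * (t₁ * d * t₁⁻¹) ≠ 1 := by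
    refine ⟨?_, fun e => ht₁d (inv_mul_eq_one.mp e).symm⟩
    have hb : ∀ c ∈ B, c * (d⁻¹ * (t₁ * d * t₁⁻¹)) * c⁻¹ = d⁻¹ * (t₁ * d * t₁⁻¹) := fun c hc => by
      have h1 : c * d * c⁻¹ = d := mul_inv_eq_iff_eq_mul.mpr (hdB c hc)
      have h2 : c * t₁ * c⁻¹ = t₁ := mul_inv_eq_iff_eq_mul.mpr (hPc c (hBP hc) t₁ ht₁)
      calc c * (d⁻¹ * (t₁ * d * t₁⁻¹)) * c⁻¹
          = (c * d * c⁻¹)⁻¹ * ((c * t₁ * c⁻¹) * (c * d * c⁻¹) * (c * t₁ * c⁻¹)⁻¹) := by group
        _ = _ := by rw [h1, h2]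
    refine ⟨mul_mem (inv_mem hd) ((Subgroup.mem_normalizer_iff.mp (hn ht₁) d).mp hd), hb, fun t ht htB => ?_⟩
    have hc := hb _ (hBmul t ht htB)
    calc t * (d⁻¹ * (t₁ * d * t₁⁻¹)) * t⁻¹
        = t₁⁻¹ * ((t₁ * t) * (d⁻¹ * (t₁ * d * t₁⁻¹)) * (t₁ * t)⁻¹) * t₁ := by group
      _ = t₁⁻¹ * d⁻¹ * t₁ * d := by rw [hc]; group
      _ = (d⁻¹ * (t₁ * d * t₁⁻¹))⁻¹ := by
          rw [show (d⁻¹ * (t₁ * d * t₁⁻¹))⁻¹ = t₁ * d⁻¹ * t₁⁻¹ * d by group,
            inv_eq_of_mul_eq_one_right (hPsq t₁ ht₁)]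
  -- the orbit
  set f : Subgroup Γ → Subgroup Γ := fun C => C.map (MulAut.conj a).toMonoidHom with hf
  have hit : ∀ (i : ℕ) (C : Subgroup Γ), f^[i] C = C.map (MulAut.conj (a ^ i)).toMonoidHom := by
    intro i C
    induction i with
    | zero => ext g; simp
    | succ i ih =>
      rw [Function.iterate_succ_apply', ih]
      simp only [hf, Subgroup.map_map]
      congr 1
      ext g
      simp [pow_succ', mul_assoc]
  have haPi : ∀ i : ℕ, ∀ t ∈ P0, a ^ i * t * (a ^ i)⁻¹ ∈ P0 := by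
    intro i
    induction i with
    | zero => intro t ht; simpa using ht
    | succ i ih =>
      intro t ht
      rw [show a ^ (i + 1) * t * (a ^ (i + 1))⁻¹ = a * (a ^ i * t * (a ^ i)⁻¹) * a⁻¹ by rw [pow_succ']; group]
      exact haP _ (ih t ht)
  have haDi : ∀ i : ℕ, ∀ x ∈ D, a ^ i * x * (a ^ i)⁻¹ ∈ D := by
    intro i
    induction i with
    | zero => intro t ht; simpa using ht
    | succ i ih =>
      intro t ht
      rw [show a ^ (i + 1) * t * (a ^ (i + 1))⁻¹ = a * (a ^ i * t * (a ^ i)⁻¹) * a⁻¹ by rw [pow_succ']; group]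
      exact haD _ (ih t ht)
  have hper : Function.IsPeriodicPt f (r ^ k) B := by
    show f^[r ^ k] B = B
    rw [hit, hak, map_one]
    ext g
    simp
  set s := Function.minimalPeriod f B with hs
  have hsdvd : s ∣ r ^ k := hper.minimalPeriod_dvd
  have hspos : 0 < s := hper.minimalPeriod_pos (pow_pos (Fact.out : r.Prime).pos k)
  have hsB : ∀ c : Γ, c ∈ B ↔ a ^ s * c * (a ^ s)⁻¹ ∈ B := by
    intro c
    have e : B.map (MulAut.conj (a ^ s)).toMonoidHom = B := (hit s B).symm.trans (Function.iterate_minimalPeriod)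
    conv_rhs => rw [← e, Subgroup.mem_map_equiv, MulAut.conj_symm_apply]
    rw [show (a ^ s)⁻¹ * (a ^ s * c * (a ^ s)⁻¹) * a ^ s = c by group]
  have hcardB : ¬ r ∣ Nat.card {t : Γ // t ∈ P0 ∧ t ∉ B} := by
    have hP2 : IsPGroup 2 B := fun c => ⟨1, Subtype.ext (by
      simpa [pow_two] using hPsq c (hBP c.2))⟩
    obtain ⟨e, he⟩ := IsPGroup.iff_card.mp hP2
    rw [Nat.card_congr (show {t : Γ // t ∈ P0 ∧ t ∉ B} ≃ B from
      { toFun := fun t => ⟨t₁ * t.1, hBmul t.1 t.2.1 t.2.2⟩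
        invFun := fun c => ⟨t₁⁻¹ * c.1, mul_mem (inv_mem ht₁) (hBP c.2), fun h => ht₁B (by
          have := mul_mem c.2 (inv_mem h)
          rwa [mul_inv_rev, inv_inv, mul_inv_cancel_left] at this)⟩
        left_inv := fun t => Subtype.ext (inv_mul_cancel_left _ _)
        right_inv := fun c => Subtype.ext (mul_inv_cancel_left _ _) }), he]
    intro h
    exact hr ((Nat.prime_dvd_prime_iff_eq Fact.out Nat.prime_two).mp ((Fact.out : r.Prime).dvd_of_dvd_pow h))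
  have hfixcoset : ∀ g : Γ, (∀ t ∈ P0, g * t * g⁻¹ ∈ P0) → (∀ c, c ∈ B ↔ g * c * g⁻¹ ∈ B) → g ^ r ^ k = 1 →
      ∃ t ∈ P0, t ∉ B ∧ g * t * g⁻¹ = t := by
    intro g hgP hgB hgk
    let σ : Equiv.Perm {t : Γ // t ∈ P0 ∧ t ∉ B} := Equiv.ofBijective
      (fun t => ⟨g * t.1 * g⁻¹, hgP _ t.2.1, fun h => t.2.2 ((hgB _).mpr h)⟩)
      (Finite.injective_iff_bijective.mp fun t t' e => Subtype.ext
        (mul_left_cancel (mul_right_cancel (congrArg Subtype.val e))))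
    have hσi : ∀ (i : ℕ) (t : {t : Γ // t ∈ P0 ∧ t ∉ B}), ((σ ^ i) t).1 = g ^ i * t.1 * (g ^ i)⁻¹ := by
      intro i t
      induction i with
      | zero => simp
      | succ i ih =>
        rw [pow_succ', Equiv.Perm.mul_apply, show (σ ((σ ^ i) t)).1 = g * ((σ ^ i) t).1 * g⁻¹ from rfl, ih,
          pow_succ']
        group
    obtain ⟨z, hz⟩ := exists_fixed_of_period σ (k := k)
      (Equiv.ext fun t => Subtype.ext (by rw [hσi, hgk]; simp)) hcardB
    exact ⟨z.1, z.2.1, z.2.2, congrArg Subtype.val hz⟩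
  have hs1 : s ≠ 1 := by
    intro e
    obtain ⟨t, ht, htB, hta⟩ := hfixcoset a haP (by
      intro c
      have := hsB c
      rwa [e, pow_one] at this) hak
    exact htB ((hfixP t ht hta) ▸ one_mem B)
  have hrs : r ∣ s := by
    obtain ⟨i, -, hi⟩ := (Nat.dvd_prime_pow (Fact.out : r.Prime)).mp hsdvd
    rcases i with _ | i
    · rw [pow_zero] at hi; exact absurd hi hs1
    · rw [hi]; exact dvd_pow_self r (by omega)
  set b := a ^ s with hb
  have hbK : b ∈ Kb := by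
    obtain ⟨e, he⟩ := hrs
    rw [hb, he, pow_mul]
    exact pow_mem har e
  have hbk : b ^ r ^ k = 1 := by rw [hb, ← pow_mul, mul_comm, pow_mul, hak, one_pow]
  obtain ⟨t, ht, htB, htb⟩ := hfixcoset b (haPi s) hsB hbk
  have hbt : Commute b t := mul_inv_eq_iff_eq_mul.mp htb
  have hbQ : ∀ x ∈ Q, b * x * b⁻¹ ∈ Q := by
    intro x hx
    refine ⟨haDi s x hx.1, fun c hc => ?_, fun u hu huB => ?_⟩
    · have hc' : b⁻¹ * c * b ∈ B := (hsB _).mpr (by rwa [show b * (b⁻¹ * c * b) * b⁻¹ = c by group])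
      calc c * (b * x * b⁻¹) * c⁻¹ = b * ((b⁻¹ * c * b) * x * (b⁻¹ * c * b)⁻¹) * b⁻¹ := by group
        _ = b * x * b⁻¹ := by rw [hx.2.1 _ hc']
    · obtain ⟨c, hc, rfl⟩ : ∃ c ∈ B, u = t⁻¹ * c := by
        refine ⟨t * u, ?_, by group⟩
        exact (hidx B hBP hBrel t ht htB).2 u hu huB
      have hc' : b⁻¹ * c * b ∈ B := (hsB _).mpr (by rwa [show b * (b⁻¹ * c * b) * b⁻¹ = c by group])
      have htx : t⁻¹ * x * t = x⁻¹ := by
        rw [inv_eq_of_mul_eq_one_right (hPsq t ht)]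
        have := hx.2.2 t ht htB
        rwa [inv_eq_of_mul_eq_one_right (hPsq t ht)] at this
      calc t⁻¹ * c * (b * x * b⁻¹) * (t⁻¹ * c)⁻¹
          = t⁻¹ * b * ((b⁻¹ * c * b) * x * (b⁻¹ * c * b)⁻¹) * b⁻¹ * t := by group
        _ = t⁻¹ * b * x * (b⁻¹ * t) := by rw [hx.2.1 _ hc']; group
        _ = b * t⁻¹ * x * (t * b⁻¹) := by rw [(hbt.inv_right.symm).eq, (hbt.inv_left).eq]
        _ = b * (t⁻¹ * x * t) * b⁻¹ := by group
        _ = (b * x * b⁻¹)⁻¹ := by rw [htx]; group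
  -- the least power with a fixed point
  have hex : ∃ j, ∃ y ∈ Q, y ≠ 1 ∧ Commute (b ^ r ^ j) y :=
    ⟨k, _, hQ1.1, hQ1.2, by rw [hbk]; exact Commute.one_left _⟩
  set j := Nat.find hex with hj
  obtain ⟨y₀, hy₀, hy₀1, hy₀c⟩ := Nat.find_spec hex
  rw [← hj] at hy₀c
  set c := b ^ r ^ j with hc
  let Q' : Subgroup Γ :=
    { carrier := {x | x ∈ Q ∧ Commute c x}
      one_mem' := ⟨one_mem Q, Commute.one_right _⟩
      mul_mem' := fun {x y} hx hy => ⟨mul_mem hx.1 hy.1, hx.2.mul_right hy.2⟩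
      inv_mem' := fun {x} hx => ⟨inv_mem hx.1, hx.2.inv_right⟩ }
  haveI : Fintype Q' := Fintype.ofFinite Q'
  have hQ'odd : Odd (Fintype.card Q') := by
    rw [← Nat.card_eq_fintype_card]
    exact Odd.of_dvd_nat hDodd (Subgroup.card_dvd_of_le fun x hx => hx.1.1)
  set N : V → V := fun u => ∑ y : Q', ρ y u with hN
  have hNfix : ∀ (x : Q') u, ρ x (N u) = N u := fun x u => by
    simp only [hN, rho_sum, ← rho_mul]
    exact Fintype.sum_equiv (Equiv.mulLeft x) _ _ fun y => rfl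
  have hNadd : ∀ u v, N (u + v) = N u + N v := fun u v => by
    simp only [hN, map_add, Finset.sum_add_distrib]
  have hexpand : ∀ u, N u = 0 → u = ∑ y : Q', (ρ y u + u) := fun u hu => by
    rw [Finset.sum_add_distrib, Finset.sum_const, Finset.card_univ, odd_nsmul hV hQ'odd]
    show u = N u + u
    rw [hu, zero_add]
  have hbQ' : ∀ (i : ℕ) (y : Q'), b ^ i * y * (b ^ i)⁻¹ ∈ Q' := by
    intro i y
    refine ⟨?_, ?_⟩
    · induction i with
      | zero => simpa using y.2.1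
      | succ i ih =>
        rw [show b ^ (i + 1) * (y : Γ) * (b ^ (i + 1))⁻¹ = b * (b ^ i * y * (b ^ i)⁻¹) * b⁻¹ by rw [pow_succ']; group]
        exact hbQ _ ih
    · exact (((Commute.refl b).pow_pow _ _).mul_right y.2.2).mul_right (((Commute.refl b).pow_pow _ _).inv_right)
  have hVb : ∀ (i : ℕ) u, N u = 0 → N (ρ (b ^ i) u) = 0 := by
    intro i u hu
    have e : N (ρ (b ^ i) u) = ρ (b ^ i) (N u) := by
      simp only [hN, rho_sum, ← rho_mul]
      refine (Fintype.sum_bijective (fun y : Q' => (⟨b ^ i * y * (b ^ i)⁻¹, hbQ' i y⟩ : Q'))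
        (Finite.injective_iff_bijective.mp fun y y' e => Subtype.ext
          (mul_left_cancel (mul_right_cancel (congrArg Subtype.val e)))) _ _ fun y => ?_).symm
      rw [inv_mul_cancel_right]
    rw [e, hu, map_zero]
  have hbo : ∀ i : ℕ, Odd (orderOf (b ^ i)) := fun i => by
    refine Odd.of_dvd_nat haodd ((orderOf_pow_dvd i).trans ?_)
    rw [hb]
    exact orderOf_pow_dvd s
  have hcfix : ∀ u, N u = 0 → ρ c u = u := by
    intro u hu
    conv_lhs => rw [hexpand u hu]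
    conv_rhs => rw [hexpand u hu]
    rw [rho_sum]
    refine Finset.sum_congr rfl fun y _ => ?_
    have h := hcore y (hDK y.2.1.1) c (pow_mem hbK _) t (hP0K ht) (hDo _ y.2.1.1) (hbo _) y.2.2.symm
      (y.2.1.2.2 t ht htB) (hbt.pow_left _) u
    have e : ρ y (ρ c u) = ρ c (ρ y u) := by rw [← rho_mul, ← rho_mul, y.2.2.eq]
    have h' : (ρ y (ρ c u) - ρ y u) - (ρ c u - u) = 0 := by
      rw [← map_sub]; exact h
    rw [e, sub_sub_sub_comm, sub_eq_zero] at h'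
    rw [map_add, ← sub_eq_zero]
    calc ρ c (ρ y u) + ρ c u - (ρ y u + u) = (ρ c (ρ y u) - ρ c u) + (ρ c u + ρ c u) - (ρ y u + u) := by abel
      _ = (ρ y u - u) + 0 - (ρ y u + u) := by rw [h', hV]
      _ = -(u + u) := by abel
      _ = 0 := by rw [hV, neg_zero]
  obtain ⟨w, hw0, hwN, hwb⟩ : ∃ w, w ≠ 0 ∧ N w = 0 ∧ ρ b w = w := by
    by_contra hnone
    push Not at hnone
    have hW : ∀ u, N u = 0 → ∑ i ∈ Finset.range (r ^ j), ρ (b ^ i) u = 0 := by
      intro u hu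
      by_contra h0
      refine hnone _ h0 ?_ ?_
      · have hz : N 0 = 0 := by simp [hN]
        exact Finset.sum_induction _ (fun w => N w = 0)
          (fun v v' h h' => by rw [hNadd, h, h', add_zero]) hz fun i _ => hVb i u hu
      · rw [rho_sum]
        simp only [← rho_mul, ← pow_succ']
        have h1 := Finset.sum_range_succ' (fun i => ρ (b ^ i) u) (r ^ j)
        rw [Finset.sum_range_succ] at h1
        rw [show ρ (b ^ r ^ j) u = u from hcfix u hu, pow_zero, map_one] at h1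
        exact (add_right_cancel h1).symm
    -- hence everything is fixed
    have hzero : ∀ u, N u = 0 → u = 0 := by
      intro u hu
      have hzy : ∀ y : Q', ρ y (∑ i ∈ Finset.range (r ^ j), ρ (b ^ i) (ρ (y⁻¹ : Q') u)) = 0 := by
        intro y
        rw [hW _ ?_, map_zero]
        simp only [hN, ← rho_mul]
        refine Eq.trans (Fintype.sum_equiv (Equiv.mulRight y⁻¹) _ _ fun z => ?_) hu
        rfl
      have hsum : ∑ i ∈ Finset.range (r ^ j), ∑ y : Q', ρ ((y : Γ) * b ^ i * ((y : Γ))⁻¹) u = 0 := by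
        rw [Finset.sum_comm]
        refine Finset.sum_eq_zero fun y _ => ?_
        rw [← hzy y, rho_sum]
        refine Finset.sum_congr rfl fun i _ => ?_
        rw [← rho_mul, ← rho_mul, Subgroup.coe_inv, mul_assoc]
      rw [Finset.sum_eq_single 0 (fun i hi hi0 => ?_) (fun h => absurd (Finset.mem_range.mpr
        (pow_pos (Fact.out : r.Prime).pos j)) h)] at hsum
      · simpa [odd_nsmul hV hQ'odd] using hsum
      · have hlt := Finset.mem_range.mp hi
        have hfree : ∀ z ∈ Q', Commute (b ^ i) z → z = 1 := by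
          intro z hz hzi
          obtain ⟨e, hej, he⟩ := (Nat.dvd_prime_pow (Fact.out : r.Prime)).mp (Nat.gcd_dvd_right i (r ^ j))
          have hlt' : e < j := by
            refine lt_of_le_of_ne hej fun e' => ?_
            have := Nat.le_of_dvd (Nat.pos_of_ne_zero hi0) (e' ▸ he ▸ Nat.gcd_dvd_left i (r ^ j))
            omega
          by_contra hz1
          refine Nat.find_min hex (hj ▸ hlt' : e < Nat.find hex) ⟨z, hz.1, hz1, ?_⟩
          rw [← he, ← zpow_natCast b, Nat.gcd_eq_gcd_ab, zpow_add, zpow_mul, zpow_mul, zpow_natCast,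
            zpow_natCast]
          exact (hzi.zpow_left _).mul_left (hz.2.zpow_left _)
        have hmem : ∀ y : Q', (y : Γ) * (b ^ i * (y : Γ)⁻¹ * (b ^ i)⁻¹) ∈ Q' := fun y =>
          mul_mem y.2 (by
            have := inv_mem (hbQ' i y)
            rwa [show (b ^ i * (y : Γ) * (b ^ i)⁻¹)⁻¹ = b ^ i * (y : Γ)⁻¹ * (b ^ i)⁻¹ by group] at this)
        refine (Fintype.sum_bijective (fun y : Q' => (⟨_, hmem y⟩ : Q'))
          (Finite.injective_iff_bijective.mp fun y y' e => ?_) _ (fun y : Q' => ρ y (ρ (b ^ i) u))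
          fun y => ?_).trans (hVb i u hu)
        · have e' := congrArg Subtype.val e
          simp only at e'
          have hq : ∀ x ∈ Q', ∀ x' ∈ Q', x * x' = x' * x := fun x hx x' hx' => hQab x hx.1 x' hx'.1
          have h1 : (y' : Γ)⁻¹ * y = 1 := by
            refine hfree _ (mul_mem (inv_mem y'.2) y.2) ?_
            show b ^ i * ((y' : Γ)⁻¹ * y) = (y' : Γ)⁻¹ * y * b ^ i
            have hm := hbQ' i y
            have hm' := inv_mem (hbQ' i y')
            calc b ^ i * ((y' : Γ)⁻¹ * y)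
                = (b ^ i * (y' : Γ) * (b ^ i)⁻¹)⁻¹ * (b ^ i * y * (b ^ i)⁻¹) * b ^ i := by group
              _ = (y' : Γ)⁻¹ * ((y' : Γ) * (b ^ i * (y' : Γ)⁻¹ * (b ^ i)⁻¹)) * (b ^ i * y * (b ^ i)⁻¹) * b ^ i := by
                  group
              _ = (y' : Γ)⁻¹ * y * b ^ i := by rw [← e']; group
          exact Subtype.ext (inv_mul_eq_one.mp h1).symm
        · rw [← rho_mul]
          congr 2
          group
    refine hy₀1 (hfaith y₀ (hDK hy₀.1) (hDo _ hy₀.1) fun v => ?_)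
    have h := hzero (v + N v) (by
      rw [hNadd]
      have h2 : N (N v) = N v := by
        conv_lhs => rw [show N (N v) = ∑ y : Q', ρ y (N v) from rfl]
        simp only [hNfix, Finset.sum_const, Finset.card_univ, odd_nsmul hV hQ'odd]
      rw [h2, hV])
    rw [eq_neg_of_add_eq_zero_left h, neg_eq_of_add_eq_zero_left (hV (N v))]
    exact hNfix ⟨y₀, hy₀, hy₀c⟩ v
  -- the sum over the orbit
  set v := ∑ i ∈ Finset.range s, ρ (a ^ i) w with hv
  have hv0 : v = 0 := by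
    refine hfixV v ?_
    rw [hv, rho_sum]
    simp only [← rho_mul, ← pow_succ']
    have h1 := Finset.sum_range_succ' (fun i => ρ (a ^ i) w) s
    rw [Finset.sum_range_succ] at h1
    rw [← hb, hwb, pow_zero, map_one] at h1
    exact (add_right_cancel h1).symm
  -- distinct hyperplanes give disjoint components
  have horth : ∀ i, i ∈ Finset.range s → i ≠ 0 → ∀ x ∈ Q, ρ x (ρ (a ^ i) w) = ρ (a ^ i) w := by
    intro i hi hi0 x hx
    set B' := B.map (MulAut.conj (a ^ i)).toMonoidHom with hB'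
    have hne : B' ≠ B := fun e => Function.not_isPeriodicPt_of_pos_of_lt_minimalPeriod hi0
      (Finset.mem_range.mp hi) ((hit i B).trans e)
    have hB'P : B' ≤ P0 := by
      rintro _ ⟨c, hc, rfl⟩
      exact haPi i c (hBP hc)
    obtain ⟨u, hu, huB⟩ : ∃ u ∈ B', u ∉ B := SetLike.not_le_iff_exists.mp fun hle => hne
      (Subgroup.eq_of_le_of_card_ge hle (Subgroup.card_map_of_injective (MulAut.conj (a ^ i)).injective).ge)
    obtain ⟨u', hu', hu'B⟩ : ∃ u' ∈ B, u' ∉ B' := SetLike.not_le_iff_exists.mp fun hle => hne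
      (Subgroup.eq_of_le_of_card_ge hle (Subgroup.card_map_of_injective (MulAut.conj (a ^ i)).injective).le).symm
    have ho1 : u * u' ∉ B := fun h => huB (by simpa using mul_mem h (inv_mem hu'))
    have ho2 : u * u' ∉ B' := fun h => hu'B (by simpa using mul_mem (inv_mem hu) h)
    conv_lhs => rw [hexpand w hwN]
    conv_rhs => rw [hexpand w hwN]
    rw [rho_sum, rho_sum]
    refine Finset.sum_congr rfl fun y _ => ?_
    set z := a ^ i * y * (a ^ i)⁻¹ with hz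
    have hzD : z ∈ D := haDi i y y.2.1.1
    have hzB : ∀ g ∈ B', g * z * g⁻¹ = z := by
      rintro _ ⟨g, hg, rfl⟩
      show a ^ i * g * (a ^ i)⁻¹ * z * (a ^ i * g * (a ^ i)⁻¹)⁻¹ = z
      rw [hz, show a ^ i * g * (a ^ i)⁻¹ * (a ^ i * y * (a ^ i)⁻¹) * (a ^ i * g * (a ^ i)⁻¹)⁻¹ =
        a ^ i * (g * y * g⁻¹) * (a ^ i)⁻¹ by group, y.2.1.2.1 g hg]
    have hP' : P0.map (MulAut.conj (a ^ i)).toMonoidHom = P0 := by
      refine Subgroup.eq_of_le_of_card_ge ?_
        (Subgroup.card_map_of_injective (MulAut.conj (a ^ i)).injective).ge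
      rintro _ ⟨c, hc, rfl⟩
      exact haPi i c hc
    have hzinv : ∀ g ∈ P0, g ∉ B' → g * z * g⁻¹ = z⁻¹ := by
      intro g hg hgB
      obtain ⟨g, hg', rfl⟩ := hP'.ge hg
      show a ^ i * g * (a ^ i)⁻¹ * z * (a ^ i * g * (a ^ i)⁻¹)⁻¹ = z⁻¹
      rw [hz, show a ^ i * g * (a ^ i)⁻¹ * (a ^ i * y * (a ^ i)⁻¹) * (a ^ i * g * (a ^ i)⁻¹)⁻¹ =
        a ^ i * (g * y * g⁻¹) * (a ^ i)⁻¹ by group, y.2.1.2.2 g hg' fun h => hgB ⟨g, h, rfl⟩]
      group
    have hxz : Commute x z := hcomm _ (mul_mem (hB'P hu) (hBP hu')) x hx.1 z hzD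
      (hx.2.2 _ (mul_mem (hB'P hu) (hBP hu')) ho1) (hzinv _ (mul_mem (hB'P hu) (hBP hu')) ho2)
    have h := hcore x (hDK hx.1) z (hDK hzD) u (hP0K (hB'P hu)) (hDo x hx.1) (hDo z hzD) hxz
      (hx.2.2 u (hB'P hu) huB) (mul_inv_eq_iff_eq_mul.mp (hzB u hu)).symm (ρ (a ^ i) w)
    have e : ρ (a ^ i) (ρ y w + w) = ρ z (ρ (a ^ i) w) - ρ (a ^ i) w := by
      rw [map_add, ← rho_mul, ← rho_mul, hz, inv_mul_cancel_right, sub_eq_add_neg,
        neg_eq_of_add_eq_zero_left (hV _)]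
    rw [e]
    exact sub_eq_zero.mp h
  -- the component of `w` survives
  apply hw0
  have hfix : ∀ y : Q', ρ y w = w := fun y => by
    have h : ρ y v - v = 0 := by rw [hv0, map_zero, sub_zero]
    rw [hv, rho_sum, ← Finset.sum_sub_distrib, Finset.sum_eq_single 0
      (fun i hi hi0 => sub_eq_zero.mpr (horth i hi hi0 y y.2.1))
      (fun h0 => absurd (Finset.mem_range.mpr hspos) h0)] at h
    simpa using sub_eq_zero.mp h
  have h : N w = w := by simp only [hN, hfix, Finset.sum_const, Finset.card_univ, odd_nsmul hV hQ'odd]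
  rw [← h, hwN]

end Cfsg.Agent.Transfer.AllConj
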