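import Cfsg.Agent.Transfer.AllConj.Group
import Cfsg.Agent.Transfer.Flavell.Tools

/-! A solvable group with a single class of involutions and no odd core has a normal Sylow two-subgroup. -/

set_option autoImplicit false
set_option linter.unusedSectionVars false
set_option linter.style.haveILetI false

namespace Cfsg.Agent.Transfer.AllConj

open Subgroup

universe u

variable {G : Type u} [Group G] [Finite G]

/-- The normal subgroup consisting of the elements of square one. -/
theorem central_involutions [Group.IsSolvable G] (hO : Cfsg.pPrimeCore 2 G = ⊥) (heven : Even (Nat.card G))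
    (hconj : ∀ x y : G, x ≠ 1 → x ^ 2 = 1 → y ≠ 1 → y ^ 2 = 1 → IsConj x y) :
    ∀ e : G, e * e = 1 → e ∈ Cfsg.pCore 2 G ∧ ∀ f ∈ Cfsg.pCore 2 G, e * f = f * e := by
  haveI : Fact (Nat.Prime 2) := ⟨Nat.prime_two⟩
  set F := Cfsg.pCore 2 G with hF
  have hCF := Core.centralizer_pCore_le_of_isSolvable (p := 2) (G := G) hO
  have hFp : IsPGroup 2 F := Core.isPGroup_pCore 2 G
  haveI hFn : F.Normal := by rw [hF]; infer_instance
  haveI : Nontrivial F := by
    rw [Subgroup.nontrivial_iff_ne_bot]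
    intro e
    obtain ⟨g, hg⟩ := exists_prime_orderOf_dvd_card' 2 (even_iff_two_dvd.mp heven)
    have : g ∈ F := hCF (Subgroup.mem_centralizer_iff.mpr fun f hf => by
      rw [← hF, e] at hf
      rw [Subgroup.mem_bot.mp hf, one_mul, mul_one])
    rw [e, Subgroup.mem_bot] at this
    rw [this, orderOf_one] at hg
    omega
  haveI := hFp.center_nontrivial
  obtain ⟨n, hn, hcard⟩ := (hFp.to_subgroup (Subgroup.center F)).nontrivial_iff_card.mp inferInstance
  obtain ⟨z, hz⟩ := exists_prime_orderOf_dvd_card' 2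
    (hcard ▸ dvd_pow_self 2 (by omega) : 2 ∣ Nat.card (Subgroup.center F))
  set w : G := ((z : F) : G) with hw
  have hw1 : w ≠ 1 := fun e => by
    rw [show z = 1 from Subtype.ext (Subtype.ext e), orderOf_one] at hz
    omega
  have hw2 : w ^ 2 = 1 := by
    have h : z ^ 2 = 1 := by rw [← hz, pow_orderOf_eq_one]
    exact congrArg (fun u : Subgroup.center F => ((u : F) : G)) h
  intro e he
  by_cases he1 : e = 1
  · subst he1
    exact ⟨one_mem _, fun f _ => by rw [one_mul, mul_one]⟩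
  obtain ⟨c, rfl⟩ := isConj_iff.mp (hconj w e hw1 hw2 he1 (by rw [pow_two]; exact he))
  refine ⟨hFn.conj_mem _ (z : F).2 c, fun f hf => ?_⟩
  have hf' : c⁻¹ * f * c ∈ F := by
    have := hFn.conj_mem f hf c⁻¹
    rwa [inv_inv] at this
  have h : (c⁻¹ * f * c) * w = w * (c⁻¹ * f * c) :=
    congrArg Subtype.val (Subgroup.mem_center_iff.mp z.2 ⟨_, hf'⟩)
  calc c * w * c⁻¹ * f = c * (w * (c⁻¹ * f * c)) * c⁻¹ := by group
    _ = c * ((c⁻¹ * f * c) * w) * c⁻¹ := by rw [h]
    _ = f * (c * w * c⁻¹) := by group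

set_option maxHeartbeats 600000 in
/-- The Sylow two-subgroup is normal. -/
theorem sylow_eq_pCore [Group.IsSolvable G] (hO : Cfsg.pPrimeCore 2 G = ⊥) (heven : Even (Nat.card G))
    (htwo : ∃ x y : G, x ≠ y ∧ x ≠ 1 ∧ x ^ 2 = 1 ∧ y ≠ 1 ∧ y ^ 2 = 1)
    (hconj : ∀ x y : G, x ≠ 1 → x ^ 2 = 1 → y ≠ 1 → y ^ 2 = 1 → IsConj x y) (S : Sylow 2 G) :
    (S : Subgroup G) = Cfsg.pCore 2 G := by
  classical
  haveI : Fact (Nat.Prime 2) := ⟨Nat.prime_two⟩
  have hinv := central_involutions hO heven hconj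
  set F := Cfsg.pCore 2 G with hF
  have hFp : IsPGroup 2 F := Core.isPGroup_pCore 2 G
  haveI hFn : F.Normal := by rw [hF]; infer_instance
  let E : Subgroup G :=
    { carrier := {e | e * e = 1}
      one_mem' := one_mul 1
      mul_mem' := fun {a b} ha hb => by
        show a * b * (a * b) = 1
        have := (hinv a ha).2 b (hinv b hb).1
        calc a * b * (a * b) = a * (b * a) * b := by group
          _ = a * (a * b) * b := by rw [this]
          _ = (a * a) * (b * b) := by group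
          _ = 1 := by rw [show a * a = 1 from ha, show b * b = 1 from hb, one_mul]
      inv_mem' := fun {a} ha => by
        show a⁻¹ * a⁻¹ = 1
        rw [← mul_inv_rev, show a * a = 1 from ha, inv_one] }
  haveI hEn : E.Normal := ⟨fun e he g => by
    show g * e * g⁻¹ * (g * e * g⁻¹) = 1
    rw [show g * e * g⁻¹ * (g * e * g⁻¹) = g * (e * e) * g⁻¹ by group, show e * e = 1 from he]
    group⟩
  have hE2 : IsPGroup 2 E := fun e => ⟨1, Subtype.ext (by
    rw [pow_one, SubmonoidClass.coe_pow, pow_two]; exact e.2)⟩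
  set φ : G →* MulAut E := MulAut.conjNormal with hφ
  set K := φ.ker with hKdef
  have hmemK : ∀ g, g ∈ K ↔ ∀ e : G, e * e = 1 → g * e = e * g := by
    intro g
    rw [hKdef, MonoidHom.mem_ker]
    constructor
    · intro h e he
      have h' := congrArg Subtype.val (DFunLike.congr_fun h (⟨e, he⟩ : E))
      rw [MulAut.conjNormal_apply, MulAut.one_apply, mul_inv_eq_iff_eq_mul] at h'
      exact h'
    · intro h
      refine MulEquiv.ext fun e => Subtype.ext ?_
      rw [MulAut.conjNormal_apply, MulAut.one_apply, h e e.2, mul_inv_cancel_right]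
  have htrans : ∀ e e' : E, e ≠ 1 → e' ≠ 1 → ∃ g, φ g e = e' := by
    intro e e' he he'
    obtain ⟨c, hc⟩ := isConj_iff.mp (hconj e e' (fun h => he (Subtype.ext h)) (by rw [pow_two]; exact e.2)
      (fun h => he' (Subtype.ext h)) (by rw [pow_two]; exact e'.2))
    exact ⟨c, Subtype.ext (by rw [MulAut.conjNormal_apply]; exact hc)⟩
  obtain ⟨x₁, y₁, hxy, hx1, hx2, hy1, hy2⟩ := htwo
  let u : E := ⟨x₁, by show x₁ * x₁ = 1; rw [← pow_two]; exact hx2⟩
  let v : E := ⟨y₁, by show y₁ * y₁ = 1; rw [← pow_two]; exact hy2⟩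
  have hu1 : u ≠ 1 := fun e => hx1 (congrArg Subtype.val e)
  have hv1 : v ≠ 1 := fun e => hy1 (congrArg Subtype.val e)
  set ψ : G ⧸ K →* MulAut E := QuotientGroup.lift K φ le_rfl with hψ
  have hψinj : ∀ a : G ⧸ K, ψ a = 1 → a = 1 := by
    intro a ha
    obtain ⟨g, rfl⟩ := QuotientGroup.mk'_surjective K a
    exact (QuotientGroup.eq_one_iff g).mpr ha
  haveI : Nontrivial (G ⧸ K) := by
    obtain ⟨g, hg⟩ := htrans u v hu1 hv1
    refine ⟨⟨QuotientGroup.mk' K g, 1, fun e => hxy ?_⟩⟩
    rw [show φ g = 1 from (QuotientGroup.eq_one_iff g).mp e, MulAut.one_apply] at hg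
    exact congrArg Subtype.val hg
  obtain ⟨A, r, hr, hAn, -, hA0, hAc, hAe, -⟩ := Flavell.exists_minimal (1 : MulAut (G ⧸ K))
  haveI := Fact.mk hr
  haveI := hAn
  -- stabilisers in `A`
  let St : E → Subgroup (G ⧸ K) := fun e =>
    { carrier := {a | a ∈ A ∧ ψ a e = e}
      one_mem' := ⟨one_mem A, by rw [map_one, MulAut.one_apply]⟩
      mul_mem' := fun {a b} ha hb => ⟨mul_mem ha.1 hb.1, by rw [map_mul, MulAut.mul_apply, hb.2, ha.2]⟩
      inv_mem' := fun {a} ha => ⟨inv_mem ha.1, by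
        conv_lhs => rw [← ha.2, ← MulAut.mul_apply, ← map_mul, inv_mul_cancel, map_one, MulAut.one_apply]⟩ }
  have hStcard : ∀ e e' : E, e ≠ 1 → e' ≠ 1 → Nat.card (St e) ≤ Nat.card (St e') := by
    intro e e' he he'
    obtain ⟨g, hg⟩ := htrans e e' he he'
    set g' := QuotientGroup.mk' K g with hg'
    have hge : ψ g' e = e' := hg
    rw [← Subgroup.card_map_of_injective (f := (MulAut.conj g').toMonoidHom) (K := St e) (show Function.Injective (MulAut.conj g').toMonoidHom from (MulAut.conj g').injective)]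
    refine Subgroup.card_le_of_le ?_
    rintro _ ⟨a, ha, rfl⟩
    refine ⟨hAn.conj_mem a ha.1 g', ?_⟩
    show ψ (g' * a * g'⁻¹) e' = e'
    rw [← hge, ← MulAut.mul_apply, ← map_mul, inv_mul_cancel_right, map_mul, MulAut.mul_apply, ha.2]
  have hSteq : ∀ e e' : E, e ≠ 1 → e' ≠ 1 → St e = St e' := by
    intro e e' he he'
    by_cases hee : e = e'
    · rw [hee]
    by_contra hne
    set e3 := e * e' with he3
    have he31 : e3 ≠ 1 := fun h => hee (by
      have h2 : e' * e' = 1 := Subtype.ext e'.2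
      exact (eq_inv_of_mul_eq_one_left h).trans (inv_eq_of_mul_eq_one_right h2))
    have hsub : St e3 ≤ St e ⊓ St e' := by
      intro a ha
      set d := ψ a e * e with hd
      have h1 : ψ a e * ψ a e' = e * e' := by rw [← map_mul]; exact ha.2
      have h2 : ∀ z : E, z * z = 1 := fun z => Subtype.ext z.2
      have hcomm : ∀ z z' : E, z * z' = z' * z := fun z z' =>
        Subtype.ext ((hinv z z.2).2 z' (hinv z' z'.2).1)
      have hde : d = ψ a e' * e' := by
        calc d = (ψ a e * ψ a e') * ψ a e' * e := by rw [mul_assoc (ψ a e) (ψ a e'), h2, mul_one]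
          _ = e * e' * ψ a e' * e := by rw [h1]
          _ = e * (e * e' * ψ a e') := hcomm _ _
          _ = e' * ψ a e' := by rw [← mul_assoc, ← mul_assoc, h2, one_mul]
          _ = ψ a e' * e' := hcomm _ _
      have hfix : St e ⊔ St e' ≤ St d := by
        refine sup_le (fun b hb => ⟨hb.1, ?_⟩) (fun b hb => ⟨hb.1, ?_⟩)
        · rw [hd, map_mul, hb.2, ← MulAut.mul_apply, ← map_mul, hAc b hb.1 a ha.1, map_mul,
            MulAut.mul_apply, hb.2]
        · rw [hde, map_mul, hb.2, ← MulAut.mul_apply, ← map_mul, hAc b hb.1 a ha.1, map_mul,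
            MulAut.mul_apply, hb.2]
      have hd1 : d = 1 := by
        by_contra hd1
        have hlt : St e < St e ⊔ St e' := lt_of_le_not_ge le_sup_left fun h => hne
          (Subgroup.eq_of_le_of_card_ge (le_sup_right.trans h) (hStcard e e' he he')).symm
        have := lt_of_lt_of_le (hlt.trans_le hfix) le_rfl
        exact absurd (hStcard d e hd1 he) (not_le.mpr (Set.Finite.card_lt_card (Set.toFinite _) this))
      have ha1 : ψ a e = e := (eq_inv_of_mul_eq_one_left (hd1 ▸ hd.symm)).trans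
        (inv_eq_of_mul_eq_one_right (h2 e))
      have ha2 : ψ a e' = e' := (eq_inv_of_mul_eq_one_left (hd1 ▸ hde.symm)).trans
        (inv_eq_of_mul_eq_one_right (h2 e'))
      exact ⟨⟨ha.1, ha1⟩, ⟨ha.1, ha2⟩⟩
    apply hne
    have e1 := Subgroup.eq_of_le_of_card_ge (hsub.trans inf_le_left) (hStcard e e3 he he31)
    have e2 := Subgroup.eq_of_le_of_card_ge (hsub.trans inf_le_right) (hStcard e' e3 he' he31)
    exact e1.symm.trans e2
  have hreg : ∀ a ∈ A, ∀ e : E, e ≠ 1 → ψ a e = e → a = 1 := fun a ha e he hae =>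
    hψinj a (MulEquiv.ext fun z => by
      by_cases hz : z = 1
      · rw [hz, map_one, map_one]
      · exact ((hSteq e z he hz).le ⟨ha, hae⟩).2)
  have hr2 : r ≠ 2 := by
    intro e
    subst e
    let myInst_act : MulAction A E := MulAction.compHom E ((ψ.comp A.subtype))
    have hAp : IsPGroup 2 A := fun a => ⟨1, Subtype.ext (by
      rw [pow_one, SubmonoidClass.coe_pow]; exact hAe a a.2)⟩
    have hdvd : 2 ∣ Nat.card E := (orderOf_eq_prime (Subtype.ext (by
      rw [SubmonoidClass.coe_pow]; exact hx2)) hu1).symm ▸ orderOf_dvd_natCard u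
    obtain ⟨e, he, he1⟩ := hAp.exists_fixed_point_of_prime_dvd_card_of_fixed_point E hdvd
      (a := (1 : E)) (fun a => map_one (ψ a))
    refine hA0 (eq_bot_iff.mpr fun a ha => Subgroup.mem_bot.mpr ?_)
    exact hreg a ha e (fun h => he1 h.symm) (he ⟨a, ha⟩)
  have hAodd : ¬ 2 ∣ Nat.card A := by
    intro h
    obtain ⟨a, ha⟩ := exists_prime_orderOf_dvd_card' 2 h
    have h1 := orderOf_dvd_of_pow_eq_one (show a ^ r = 1 from Subtype.ext (hAe a a.2))
    rw [ha] at h1
    exact hr2 ((Nat.prime_dvd_prime_iff_eq Nat.prime_two hr).mp h1).symm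
  -- no two-element moved by `A` commutes with it
  have hfree : ∀ (g : G) (a : G ⧸ K), a ∈ A → a ≠ 1 → QuotientGroup.mk' K g = a →
      ∀ (i : ℕ) (s : G), s ^ 2 ^ i = 1 → g * s * g⁻¹ = s → s = 1 := by
    intro g a ha ha1 hga i
    induction i with
    | zero => intro s hs _; simpa using hs
    | succ i ih =>
      intro s hs hgs
      refine ih s ?_ hgs
      by_contra hne
      have hm : s ^ 2 ^ i * s ^ 2 ^ i = 1 := by rw [← pow_add, ← two_mul, ← pow_succ', hs]
      refine ha1 (hreg a ha (⟨_, hm⟩ : E) (fun e => hne (congrArg Subtype.val e)) ?_)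
      rw [← hga]
      refine Subtype.ext ?_
      show ((φ g) (⟨_, hm⟩ : E) : G) = s ^ 2 ^ i
      rw [MulAut.conjNormal_apply, ← conj_pow, hgs]
  have hFK : F ≤ K := fun f hf => (hmemK f).mpr fun e he => ((hinv e he).2 f hf).symm
  obtain ⟨τ, hτ, hτ1⟩ := (Subgroup.bot_or_exists_ne_one A).resolve_left hA0
  -- every two-element centralises the involutions
  have h2K : ∀ g : G, ∀ i : ℕ, g ^ 2 ^ i = 1 → g ∈ K := by
    obtain ⟨P⟩ : Nonempty (Sylow 2 K) := inferInstance
    set SK := (P : Subgroup K).map K.subtype with hSK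
    set N := normalizer (SK : Set G) with hN
    have hNK : N ⊔ K = ⊤ := P.normalizer_sup_eq_top
    have hSKK : SK ≤ K := Subgroup.map_subtype_le _
    have hSKN : SK ≤ N := Subgroup.le_normalizer
    have hlift : ∀ g : G, ∃ n ∈ N, QuotientGroup.mk' K n = QuotientGroup.mk' K g := fun g => by
      obtain ⟨n, hn, c, hc, e⟩ := Subgroup.mem_sup_of_normal_right.mp (hNK.ge (Subgroup.mem_top g))
      exact ⟨n, hn, by rw [← e, map_mul, show QuotientGroup.mk' K c = 1 from (QuotientGroup.eq_one_iff c).mpr hc,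
        mul_one]⟩
    set M := N ⊓ A.comap (QuotientGroup.mk' K) with hM
    have hSKM : SK ≤ M := le_inf hSKN fun s hs => by
      show QuotientGroup.mk' K s ∈ A
      rw [show QuotientGroup.mk' K s = 1 from (QuotientGroup.eq_one_iff s).mpr (hSKK hs)]
      exact one_mem A
    have hSK2 : IsPGroup 2 SK := P.2.map _
    have hidx : ¬ 2 ∣ SK.relIndex M := by
      intro h
      have hle : SK ≤ M ⊓ K := le_inf hSKM hSKK
      rw [← Subgroup.relIndex_mul_relIndex SK (M ⊓ K) M hle inf_le_left] at h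
      rcases (Nat.prime_two.dvd_mul).mp h with h | h
      · apply P.not_dvd_index
        have h2 := h.trans (Dvd.intro _ (Subgroup.relIndex_mul_relIndex SK (M ⊓ K) K hle inf_le_right))
        rwa [hSK, show (Subgroup.map K.subtype ↑P).relIndex K = (P : Subgroup K).index from by
          rw [Subgroup.relIndex, Subgroup.subgroupOf, Subgroup.comap_map_eq_self_of_injective K.subtype_injective]] at h2
      · rw [Subgroup.inf_relIndex_left, show K = (QuotientGroup.mk' K).ker from (QuotientGroup.ker_mk' K).symm,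
          Subgroup.relIndex_ker] at h
        refine hAodd (h.trans ?_)
        rw [← SetLike.coe_sort_coe] at *
        exact Subgroup.card_dvd_of_le (H := M.map (QuotientGroup.mk' K)) (K := A)
          (Subgroup.map_le_iff_le_comap.mpr inf_le_right)
    haveI : (SK.subgroupOf M).Normal := Subgroup.normal_subgroupOf_of_le_normalizer inf_le_left
    obtain ⟨T', hT'⟩ := Subgroup.exists_right_complement'_of_coprime (N := SK.subgroupOf M) (by
      obtain ⟨n, hn⟩ := IsPGroup.iff_card.mp hSK2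
      rw [Nat.card_congr (Subgroup.subgroupOfEquivOfLe hSKM).toEquiv, hn]
      exact ((Nat.Prime.coprime_iff_not_dvd Nat.prime_two).mpr hidx).pow_left n)
    set T := T'.map M.subtype with hT
    have hTM : T ≤ M := Subgroup.map_subtype_le _
    have hdec : ∀ m ∈ M, ∃ s ∈ SK, ∃ t ∈ T, m = s * t := fun m hm => by
      obtain ⟨⟨⟨s, hs⟩, ⟨t, ht⟩⟩, e⟩ := (hT'.existsUnique (⟨m, hm⟩ : M)).exists
      exact ⟨(s : G), hs, (t : G), ⟨t, ht, rfl⟩, (congrArg Subtype.val e).symm⟩
    have hdis : ∀ z ∈ SK, z ∈ T → z = 1 := fun z hz hzT => by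
      obtain ⟨t, ht, rfl⟩ := hzT
      have := Subgroup.mem_bot.mp (hT'.disjoint.le_bot ⟨(show t ∈ SK.subgroupOf M from hz), ht⟩)
      rw [this]; rfl
    have hTcop : (Nat.card T).Coprime (Nat.card SK) := by
      obtain ⟨n, hn⟩ := IsPGroup.iff_card.mp hSK2
      rw [hn, hT, Subgroup.card_map_of_injective M.subtype_injective, ← hT'.symm.index_eq_card]
      exact ((Nat.Prime.coprime_iff_not_dvd Nat.prime_two).mpr hidx).symm.pow_right n
    intro g i hgi
    by_contra hgK
    obtain ⟨n, hn, hnξ⟩ := hlift g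
    have hMn : ∀ t ∈ T, n * t * n⁻¹ ∈ M := fun t ht => ⟨N.mul_mem (N.mul_mem hn (hTM ht).1) (N.inv_mem hn), by
      show QuotientGroup.mk' K (n * t * n⁻¹) ∈ A
      rw [map_mul, map_mul, map_inv]
      exact hAn.conj_mem _ (hTM ht).2 _⟩
    obtain ⟨s, hs, hse⟩ := Core.exists_conj_complement_general SK T (T.map (MulAut.conj n).toMonoidHom)
      (Or.inr inferInstance) (hTM.trans inf_le_left) (fun z hz => by
        obtain ⟨t, ht, rfl⟩ := hz
        obtain ⟨s, hs, t', ht', e⟩ := hdec _ (hMn t ht)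
        show n * t * n⁻¹ ∈ SK ⊔ T
        rw [e]
        exact mul_mem (Subgroup.mem_sup_left hs) (Subgroup.mem_sup_right ht'))
      (Subgroup.card_map_of_injective (MulAut.conj n).injective) hTcop
    set n' := s⁻¹ * n with hn'
    have hn'N : n' ∈ N := mul_mem (inv_mem (hSKN hs)) hn
    have hn'T : ∀ t ∈ T, n' * t * n'⁻¹ ∈ T := fun t ht => by
      obtain ⟨t', ht', e⟩ := hse.le ⟨t, ht, rfl⟩
      have e' : n * t * n⁻¹ = s * t' * s⁻¹ := e.symm
      rw [hn', show s⁻¹ * n * t * (s⁻¹ * n)⁻¹ = s⁻¹ * (n * t * n⁻¹) * s by group, e',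
        show s⁻¹ * (s * t' * s⁻¹) * s = t' by group]
      exact ht'
    obtain ⟨j, m, hm, hord⟩ := Nat.exists_eq_two_pow_mul_odd (orderOf_pos n').ne'
    set y := n' ^ m with hy
    have hy2 : y ^ 2 ^ j = 1 := by rw [hy, ← pow_mul, mul_comm, ← hord, pow_orderOf_eq_one]
    have hyξ : QuotientGroup.mk' K y = QuotientGroup.mk' K g ^ m := by
      rw [hy, map_pow, hn', map_mul, map_inv,
        show QuotientGroup.mk' K s = 1 from (QuotientGroup.eq_one_iff s).mpr (hSKK hs), inv_one, one_mul, hnξ]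
    have hy1 : y ≠ 1 := fun e => hgK ((QuotientGroup.eq_one_iff g).mp (orderOf_eq_one_iff.mp
      (Nat.eq_one_of_dvd_coprimes ((Nat.coprime_two_left.mpr hm).pow_left i)
        (orderOf_dvd_of_pow_eq_one (x := QuotientGroup.mk' K g) (by rw [← map_pow, hgi, map_one]))
        (orderOf_dvd_of_pow_eq_one (x := QuotientGroup.mk' K g) (by rw [← hyξ, e, map_one])))))
    obtain ⟨l, hl, hl'⟩ : ∃ l, y ^ 2 ^ l ≠ 1 ∧ y ^ 2 ^ (l + 1) = 1 := by
      by_contra hc
      push Not at hc
      have : ∀ l, y ^ 2 ^ l ≠ 1 := fun l => by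
        induction l with
        | zero => simpa using hy1
        | succ l ih => exact hc l ih
      exact this j hy2
    set w := y ^ 2 ^ l with hw
    have hww : w * w = 1 := by rw [hw, ← pow_add, ← two_mul, ← pow_succ', hl']
    have hwSK : w ∈ SK := by
      have hEK : E ≤ K := fun e he => hFK (hinv e he).1
      haveI : (E.subgroupOf K).Normal := inferInstance
      have h1 := (P.3 ((hE2.of_equiv (Subgroup.subgroupOfEquivOfLe hEK).symm).to_sup_of_normal_left P.2)
        le_sup_right)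
      exact ⟨⟨w, hEK hww⟩, h1.le (Subgroup.mem_sup_left (show (⟨w, hEK hww⟩ : K) ∈ E.subgroupOf K from hww)), rfl⟩
    have hwn : w ∈ Subgroup.zpowers n' := by
      rw [hw, hy]; exact pow_mem (pow_mem (Subgroup.mem_zpowers n') _) _
    have hzT : Subgroup.zpowers n' ≤ normalizer (T : Set G) :=
      Subgroup.zpowers_le.mpr (Subgroup.mem_normalizer_fintype hn'T)
    obtain ⟨a, hat⟩ : ∃ t ∈ T, QuotientGroup.mk' K t = τ := by
      obtain ⟨g₀, hg₀⟩ := QuotientGroup.mk'_surjective K τ
      obtain ⟨n₀, hn₀, hn₀e⟩ := hlift g₀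
      obtain ⟨s₀, hs₀, t, ht, e⟩ := hdec n₀ ⟨hn₀, by
        show QuotientGroup.mk' K n₀ ∈ A
        rw [hn₀e, hg₀]; exact hτ⟩
      refine ⟨t, ht, ?_⟩
      rw [← hg₀, ← hn₀e, e, map_mul,
        show QuotientGroup.mk' K s₀ = 1 from (QuotientGroup.eq_one_iff s₀).mpr (hSKK hs₀), one_mul]
    have hcomm : w * a * w⁻¹ * a⁻¹ = 1 := by
      refine hdis _ ?_ (mul_mem ((Subgroup.mem_normalizer_iff.mp (hzT hwn) a).mp hat.1) (inv_mem hat.1))
      rw [show w * a * w⁻¹ * a⁻¹ = w * (a * w⁻¹ * a⁻¹) by group]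
      exact mul_mem hwSK ((Subgroup.mem_normalizer_iff.mp (hTM hat.1).1 _).mp (inv_mem hwSK))
    refine hl (hfree a τ hτ hτ1 hat.2 1 w (by rw [pow_one, pow_two]; exact hww) ?_)
    rw [mul_inv_eq_one, mul_inv_eq_iff_eq_mul] at hcomm
    rw [← hcomm, mul_inv_cancel_right]
  -- the Sylow subgroup
  have hSK : (S : Subgroup G) ≤ K := fun s hs => by
    obtain ⟨i, hi⟩ := S.2 ⟨s, hs⟩
    exact h2K s i (congrArg Subtype.val hi)
  set N := normalizer ((S : Subgroup G) : Set G) with hN
  have hNK : N ⊔ K = ⊤ := by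
    have h := (S.subtype hSK).normalizer_sup_eq_top
    rwa [Sylow.coe_subtype, Subgroup.subgroupOf_map_subtype, inf_eq_left.mpr hSK] at h
  obtain ⟨g₀, hg₀⟩ := QuotientGroup.mk'_surjective K τ
  obtain ⟨n, hn, c, hc, e⟩ := Subgroup.mem_sup_of_normal_right.mp (hNK.ge (Subgroup.mem_top g₀))
  have hnτ : QuotientGroup.mk' K n = τ := by
    rw [← hg₀, ← e, map_mul, show QuotientGroup.mk' K c = 1 from (QuotientGroup.eq_one_iff c).mpr hc, mul_one]
  obtain ⟨k, m, hm, hord⟩ := Nat.exists_eq_pow_mul_and_not_dvd (orderOf_pos n).ne' r hr.ne_one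
  set a := n ^ m with ha
  have hak : a ^ r ^ k = 1 := by rw [ha, ← pow_mul, mul_comm, ← hord, pow_orderOf_eq_one]
  have haτ : QuotientGroup.mk' K a = τ ^ m := by rw [ha, map_pow, hnτ]
  have hτr : τ ^ r = 1 := hAe τ hτ
  have ha1 : τ ^ m ≠ 1 := fun e => by
    have h1 := orderOf_dvd_of_pow_eq_one e
    rw [orderOf_eq_prime hτr hτ1] at h1
    exact hm h1
  refine le_antisymm (sylow_le_pCore (Core.centralizer_pCore_le_of_isSolvable (p := 2) (G := G) hO) hinv S
    (fun s hs e he => (hmemK s).mp (hSK hs) e he) a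
    (fun s hs => (Subgroup.mem_normalizer_iff.mp (pow_mem hn m) s).mp hs) hr2 hak (fun e he => ?_)
    (fun e he h => hfree a _ (pow_mem hτ m) ha1 haτ 1 e (by rw [pow_one, pow_two]; exact he) h))
    (Core.pCore_le_sylow S)
  refine (hmemK _).mp ((QuotientGroup.eq_one_iff _).mp ?_) e he
  show QuotientGroup.mk' K (a ^ r) = 1
  rw [map_pow, haτ, ← pow_mul, mul_comm, pow_mul, hτr, one_pow]

end Cfsg.Agent.Transfer.AllConj
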